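import Mathlib
import Cfsg.Agent.Lib.PresSL.Real
import Cfsg.Agent.Lib.StGen.Chain

/-!
The embedding of `SL₂` acting on two disjoint pairs of coordinates, by `z` and by the inverse transpose.
-/

set_option autoImplicit false
set_option linter.unusedSectionVars false
set_option linter.unusedSimpArgs false
set_option linter.unusedVariables false

namespace Cfsg.Agent.Lib.StOm.Block

open Matrix Cfsg.Agent.Lib.PSL2.Basic Cfsg.Agent.Lib.PresSL.Real Cfsg.Agent.Lib.Steinberg.LinearStem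
open scoped MatrixGroups

variable {ι : Type*} [Fintype ι] [DecidableEq ι] {F : Type*} [Field F]

theorem sl2_closure (P : Subgroup SL(2, F)) (hx : ∀ t, x t ∈ P) (hy : ∀ t, y t ∈ P) (z : SL(2, F)) : z ∈ P := by
  have hw : w ∈ P := by
    have e : (w : SL(2, F)) = x 1 * y (-1) * x 1 := by
      apply ext2 <;> simp
    rw [e]
    exact P.mul_mem (P.mul_mem (hx _) (hy _)) (hx _)
  have hd : ∀ a (ha : a ≠ 0), d a ha ∈ P := by
    intro a ha
    have e : d a ha = w⁻¹ * (x a⁻¹ * y (-a) * x a⁻¹) := by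
      have h1 : x a⁻¹ = (x (-a⁻¹))⁻¹ := by rw [x_inv, neg_neg]
      rw [Cfsg.Agent.Lib.StGen.Mono.y_eq a ha, h1]
      group
    rw [e]
    exact P.mul_mem (P.inv_mem hw) (P.mul_mem (P.mul_mem (hx _) (hy _)) (hx _))
  rcases Cfsg.Agent.Lib.StGen.Chain.sl2_bruhat z with ⟨t, a, ha, rfl⟩ | ⟨t, a, ha, s, rfl⟩
  · exact P.mul_mem (hx t) (hd a ha)
  · exact P.mul_mem (P.mul_mem (P.mul_mem (hx t) hw) (hd a ha)) (hx s)

/-- The automorphism `z ↦ (zᵀ)⁻¹` of `SL₂`. -/
def th : SL(2, F) →* SL(2, F) := (MulAut.conj w).toMonoidHom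

theorem th_apply (z : SL(2, F)) : th z = w * z * w⁻¹ := rfl
theorem th_x (t : F) : th (x t) = y (-t) := w_x_w_inv t
theorem th_y (t : F) : th (y t) = x (-t) := w_y_w_inv t
theorem th_w : th (w : SL(2, F)) = w := by
  rw [th_apply, mul_inv_cancel_right]
theorem th_d (t : F) (ht : t ≠ 0) : th (d t ht) = d t⁻¹ (inv_ne_zero ht) := by
  rw [th_apply]
  apply ext2 <;> simp [w, d]

variable {a b a' b' : ι}

/-- Disjoint pairs. -/
structure Blk (a b a' b' : ι) : Prop where
  hab : a ≠ b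
  hab' : a' ≠ b'
  aa : a ≠ a'
  ab : a ≠ b'
  ba : b ≠ a'
  bb : b ≠ b'

theorem rho_left (hab : a ≠ b) (z : SL(2, F)) {r k : ι} (h1 : k ≠ a) (h2 : k ≠ b) :
    (rho hab z).1 r k = (1 : Matrix ι ι F) r k := by
  rw [rho_entry, Matrix.one_apply]
  by_cases h3 : r = a
  · subst h3
    simp [h1, h2, h1.symm]
  · by_cases h4 : r = b
    · subst h4
      simp [h1, h2, h2.symm, h3]
    · simp [h1, h2, h3, h4]

theorem rho_right (hab : a ≠ b) (z : SL(2, F)) {r k : ι} (h1 : r ≠ a) (h2 : r ≠ b) :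
    (rho hab z).1 r k = (1 : Matrix ι ι F) r k := by
  rw [rho_entry, Matrix.one_apply, if_neg h1, if_neg h2]
  by_cases h3 : k = a
  · subst h3
    simp [h1]
  · by_cases h4 : k = b
    · subst h4
      simp [h2, h3]
    · simp [h3, h4]

theorem rho_mul_apply (hab : a ≠ b) (hab' : a' ≠ b') (h1 : a ≠ a') (h2 : a ≠ b') (h3 : b ≠ a') (h4 : b ≠ b')
    (z z' : SL(2, F)) :
    (rho hab z).1 * (rho hab' z').1 = (rho hab z).1 + (rho hab' z').1 - 1 := by
  have hA : ∀ M : Matrix ι ι F, ∀ N : Matrix ι ι F,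
      (∀ r k, k ≠ a → k ≠ b → M r k = (1 : Matrix ι ι F) r k) →
      (∀ k c, k ≠ a' → k ≠ b' → N k c = (1 : Matrix ι ι F) k c) → (M - 1) * (N - 1) = 0 := by
    intro M N hM hN
    ext r c
    rw [Matrix.mul_apply, Matrix.zero_apply]
    apply Finset.sum_eq_zero
    intro k _
    by_cases h5 : k = a
    · subst h5
      rw [Matrix.sub_apply (A := N), hN _ _ h1 h2, sub_self, mul_zero]
    · by_cases h6 : k = b
      · subst h6
        rw [Matrix.sub_apply (A := N), hN _ _ h3 h4, sub_self, mul_zero]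
      · rw [Matrix.sub_apply (A := M), hM _ _ h5 h6, sub_self, zero_mul]
  have h5 := hA (rho hab z).1 (rho hab' z').1 (fun r k => rho_left hab z) (fun k c => rho_right hab' z')
  have h6 : (rho hab z).1 * (rho hab' z').1 = ((rho hab z).1 - 1) * ((rho hab' z').1 - 1) + (rho hab z).1 + (rho hab' z').1 - 1 := by
    noncomm_ring
  rw [h6, h5, zero_add]

theorem rho_mul_apply' (hab : a ≠ b) (hab' : a' ≠ b') (h1 : a ≠ a') (h2 : a ≠ b') (h3 : b ≠ a') (h4 : b ≠ b')
    (z z' : SL(2, F)) :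
    (rho hab' z').1 * (rho hab z).1 = (rho hab z).1 + (rho hab' z').1 - 1 := by
  rw [rho_mul_apply hab' hab h1.symm h3.symm h2.symm h4.symm, add_comm]

theorem rho_commute (H : Blk a b a' b') (z z' : SL(2, F)) :
    Commute (rho H.hab z) (rho H.hab' z') := by
  apply Subtype.ext
  show (rho H.hab z).1 * (rho H.hab' z').1 = (rho H.hab' z').1 * (rho H.hab z).1
  rw [rho_mul_apply H.hab H.hab' H.aa H.ab H.ba H.bb, rho_mul_apply' H.hab H.hab' H.aa H.ab H.ba H.bb]

/-- The embedding. -/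
noncomputable def phi (H : Blk a b a' b') : SL(2, F) →* Matrix.SpecialLinearGroup ι F where
  toFun z := rho H.hab z * rho H.hab' (th z)
  map_one' := by simp
  map_mul' z z' := by
    simp only [map_mul]
    have := (rho_commute H z' (th z)).eq
    calc rho H.hab z * rho H.hab z' * (rho H.hab' (th z) * rho H.hab' (th z'))
        = rho H.hab z * (rho H.hab z' * rho H.hab' (th z)) * rho H.hab' (th z') := by group
      _ = rho H.hab z * (rho H.hab' (th z) * rho H.hab z') * rho H.hab' (th z') := by rw [this]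
      _ = _ := by group

theorem phi_val (H : Blk a b a' b') (z : SL(2, F)) :
    (phi H z).1 = (rho H.hab z).1 + (rho H.hab' (th z)).1 - 1 :=
  rho_mul_apply H.hab H.hab' H.aa H.ab H.ba H.bb z (th z)

theorem phi_apply (H : Blk a b a' b') (z : SL(2, F)) (r c : ι) :
    (phi H z).1 r c = (rho H.hab z).1 r c + (rho H.hab' (th z)).1 r c - (1 : Matrix ι ι F) r c := by
  rw [phi_val]
  rfl

theorem phi_left (H : Blk a b a' b') (z : SL(2, F)) {r c : ι} (h1 : c ≠ a') (h2 : c ≠ b') :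
    (phi H z).1 r c = (rho H.hab z).1 r c := by
  rw [phi_apply, rho_left H.hab' _ h1 h2]
  ring

theorem phi_left' (H : Blk a b a' b') (z : SL(2, F)) {r c : ι} (h1 : c ≠ a) (h2 : c ≠ b) :
    (phi H z).1 r c = (rho H.hab' (th z)).1 r c := by
  rw [phi_apply, rho_left H.hab _ h1 h2]
  ring

theorem rho_x_apply {A B : ι} (hab : A ≠ B) (t : F) (r c : ι) :
    (rho hab (x t)).1 r c = if r = c then 1 else if r = A ∧ c = B then t else 0 := by
  rw [rho_entry]
  simp only [x_00, x_01, x_10, x_11]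
  split_ifs <;> simp_all

theorem rho_y_apply {A B : ι} (hab : A ≠ B) (t : F) (r c : ι) :
    (rho hab (y t)).1 r c = if r = c then 1 else if r = B ∧ c = A then t else 0 := by
  rw [rho_entry]
  simp only [y_00, y_01, y_10, y_11]
  split_ifs <;> simp_all

theorem rho_w_mon {A B : ι} (hab : A ≠ B) (r c : ι) :
    (rho hab w).1 r c ≠ (0 : F) ↔ r = Equiv.swap A B c := by
  rw [rho_entry, Equiv.swap_apply_def]
  simp only [w_00, w_01, w_10, w_11]
  split_ifs <;> simp_all [eq_comm]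

theorem rho_d_mon {A B : ι} (hab : A ≠ B) (t : F) (ht : t ≠ 0) (r c : ι) :
    (rho hab (d t ht)).1 r c ≠ (0 : F) ↔ r = c := by
  rw [rho_entry]
  simp only [d_00, d_01, d_10, d_11]
  split_ifs <;> simp_all [eq_comm]

theorem phi_x (H : Blk a b a' b') (t : F) (r c : ι) :
    (phi H (x t)).1 r c = if r = c then 1 else if r = a ∧ c = b then t else if r = b' ∧ c = a' then -t else 0 := by
  rw [phi_apply, th_x, rho_x_apply, rho_y_apply, Matrix.one_apply]
  by_cases h1 : r = c
  · simp [h1]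
  · rw [if_neg h1, if_neg h1, if_neg h1, if_neg h1, sub_zero]
    by_cases h2 : r = a ∧ c = b
    · have h3 : ¬ (r = b' ∧ c = a') := fun h => H.ab (h2.1.symm.trans h.1)
      simp [h2, h3]
      simpa [h2.1, h2.2] using fun h : a = b' => absurd h H.ab
    · simp [h2]

theorem phi_y (H : Blk a b a' b') (t : F) (r c : ι) :
    (phi H (y t)).1 r c = if r = c then 1 else if r = b ∧ c = a then t else if r = a' ∧ c = b' then -t else 0 := by
  rw [phi_apply, th_y, rho_y_apply, rho_x_apply, Matrix.one_apply]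
  by_cases h1 : r = c
  · simp [h1]
  · rw [if_neg h1, if_neg h1, if_neg h1, if_neg h1, sub_zero]
    by_cases h2 : r = b ∧ c = a
    · have h3 : ¬ (r = a' ∧ c = b') := fun h => H.ba (h2.1.symm.trans h.1)
      simp [h2, h3]
      simpa [h2.1, h2.2] using fun h : b = a' => absurd h H.ba
    · simp [h2]

/-- The permutation. -/
def pp (a b a' b' : ι) : Equiv.Perm ι := Equiv.swap a b * Equiv.swap a' b'

theorem pp_a (H : Blk a b a' b') : pp a b a' b' a = b := by
  rw [pp, Equiv.Perm.mul_apply, Equiv.swap_apply_of_ne_of_ne H.aa H.ab, Equiv.swap_apply_left]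
theorem pp_b (H : Blk a b a' b') : pp a b a' b' b = a := by
  rw [pp, Equiv.Perm.mul_apply, Equiv.swap_apply_of_ne_of_ne H.ba H.bb, Equiv.swap_apply_right]
theorem pp_a' (H : Blk a b a' b') : pp a b a' b' a' = b' := by
  rw [pp, Equiv.Perm.mul_apply, Equiv.swap_apply_left, Equiv.swap_apply_of_ne_of_ne H.ab.symm H.bb.symm]
theorem pp_b' (H : Blk a b a' b') : pp a b a' b' b' = a' := by
  rw [pp, Equiv.Perm.mul_apply, Equiv.swap_apply_right, Equiv.swap_apply_of_ne_of_ne H.aa.symm H.ba.symm]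
theorem pp_ne {c : ι} (h1 : c ≠ a) (h2 : c ≠ b) (h3 : c ≠ a') (h4 : c ≠ b') : pp a b a' b' c = c := by
  rw [pp, Equiv.Perm.mul_apply, Equiv.swap_apply_of_ne_of_ne h3 h4, Equiv.swap_apply_of_ne_of_ne h1 h2]

theorem phi_w (H : Blk a b a' b') (r c : ι) :
    (phi H w).1 r c ≠ (0 : F) ↔ r = pp a b a' b' c := by
  by_cases h1 : c = a
  · subst h1
    rw [pp_a H, phi_left H _ H.aa H.ab, rho_w_mon H.hab, Equiv.swap_apply_left]
  by_cases h2 : c = b
  · subst h2
    rw [pp_b H, phi_left H _ H.ba H.bb, rho_w_mon H.hab, Equiv.swap_apply_right]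
  by_cases h3 : c = a'
  · subst h3
    rw [pp_a' H, phi_left' H _ h1 h2, th_w, rho_w_mon H.hab', Equiv.swap_apply_left]
  by_cases h4 : c = b'
  · subst h4
    rw [pp_b' H, phi_left' H _ h1 h2, th_w, rho_w_mon H.hab', Equiv.swap_apply_right]
  rw [pp_ne h1 h2 h3 h4, phi_left H _ h3 h4, rho_w_mon H.hab, Equiv.swap_apply_of_ne_of_ne h1 h2]

theorem phi_d (H : Blk a b a' b') (t : F) (ht : t ≠ 0) (r c : ι) :
    (phi H (d t ht)).1 r c ≠ (0 : F) ↔ r = c := by
  by_cases h3 : c = a'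
  · subst h3
    rw [phi_left' H _ H.aa.symm H.ba.symm, th_d, rho_d_mon]
  by_cases h4 : c = b'
  · subst h4
    rw [phi_left' H _ H.ab.symm H.bb.symm, th_d, rho_d_mon]
  rw [phi_left H _ h3 h4, rho_d_mon]

end Cfsg.Agent.Lib.StOm.Block
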