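import Mathlib
import Cfsg.Agent.Lib.StGen.Chain

/-!
A builder for the Steinberg character of a group of monomial-by-unitriangular matrices, from
data attached to the simple roots: a variant of `StGen.Builder` where the additive position of the root
may differ from the pair swapped by its Weyl element, and where inversions are only counted on
a chosen invariant set of pairs of positions.
-/

set_option autoImplicit false
set_option linter.unusedSectionVars false
set_option linter.unusedSimpArgs false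

namespace Cfsg.Agent.Lib.StOm.Builder

open Matrix Cfsg Cfsg.Agent.Lib.PSL2.Basic Cfsg.Agent.Lib.ChevBN.Core Cfsg.Agent.Lib.BNPair.Basic
open Cfsg.Agent.Lib.ChevOrder.BNCount Cfsg.Agent.Lib.StGen.Mono
open Cfsg.Agent.Lib.StGen.Builder (isPGroup_USub not_dvd_HSub)
open Cfsg.Agent.Lib.StGen
open scoped MatrixGroups

variable {G : Type*} [Group G] {ι : Type*} [Fintype ι] [DecidableEq ι] {F : Type*} [Field F]
variable {ρ : G →* Matrix ι ι F} {ord : ι → ℕ}

variable [Finite G] (hord : Function.Injective ord)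

variable (ρ) in
/-- The data of a simple root. -/
structure RootData where
  φ : SL(2, F) →* G
  π : Equiv.Perm ι
  a : ι
  b : ι
  a₂ : ι
  b₂ : ι
  hab : ord a < ord b
  hab₂ : ord a₂ < ord b₂
  rev : ord (π⁻¹ b) < ord (π⁻¹ a)
  Sx : ι → ι → Prop
  Sx_ab : Sx a₂ b₂
  Sx_ord : ∀ r c, Sx r c → ord r < ord c
  mon_w : IsMon ρ (φ w) π
  π_a : π a₂ = b₂
  π_b : π b₂ = a₂
  d_mem : ∀ t (ht : t ≠ 0), IsMon ρ (φ (d t ht)) 1
  x_diag : ∀ t r, ρ (φ (x t)) r r = 1
  y_diag : ∀ t r, ρ (φ (y t)) r r = 1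
  x_supp : ∀ t r c, r ≠ c → ρ (φ (x t)) r c ≠ 0 → Sx r c
  y_supp : ∀ t r c, r ≠ c → ρ (φ (y t)) r c ≠ 0 → Sx c r
  x_ab : ∀ t, ρ (φ (x t)) a b = t
  y_ba : ρ (φ (y 1)) b a ≠ 0
  add : ∀ u v, IsUT ρ ord u → IsUT ρ ord v → ρ (u * v) a b = ρ u a b + ρ v a b
  van : ∀ u, IsUT ρ ord u → ρ u a b = 0 → ∀ r c, ord r < ord c → ord (π c) < ord (π r) → ρ u r c = 0
  H_norm : ∀ h, IsMon ρ h 1 → ∀ t, ∃ t', h * φ (x t) * h⁻¹ = φ (x t')
  dich : ∀ n π', IsMon ρ n π' → (∀ r c, Sx r c → ord (π'⁻¹ r) < ord (π'⁻¹ c)) ∨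
    (∀ r c, Sx r c → ord (π'⁻¹ c) < ord (π'⁻¹ r))

namespace RootData

variable {hord} (D : RootData ρ (ord := ord))

theorem x_up (t : F) {r c : ι} (h : ord c < ord r) : ρ (D.φ (x t)) r c = 0 := by
  by_contra h1
  have hrc : r ≠ c := by
    rintro rfl
    exact lt_irrefl _ h
  have := D.Sx_ord _ _ (D.x_supp t r c hrc h1)
  omega

theorem x_isUT (t : F) : IsUT ρ ord (D.φ (x t)) := ⟨fun _ _ h => D.x_up t h, D.x_diag t⟩

/-- The complement of the root group. -/
def Y : Subgroup G where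
  carrier := {u | IsUT ρ ord u ∧ ρ u D.a D.b = 0}
  mul_mem' := by
    rintro u v ⟨hu, hu'⟩ ⟨hv, hv'⟩
    exact ⟨hu.mul hord hv, by rw [D.add u v hu hv, hu', hv', add_zero]⟩
  one_mem' := ⟨isUT_one, by
    have : D.a ≠ D.b := by
      intro h
      have := D.hab
      rw [h] at this
      exact lt_irrefl _ this
    simp [Matrix.one_apply, this]⟩
  inv_mem' := by
    rintro u ⟨hu, hu'⟩
    have h1 : u⁻¹ ∈ USub ρ hord := (USub ρ hord).inv_mem hu
    refine ⟨h1, ?_⟩
    have h2 := D.add u u⁻¹ hu h1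
    rw [mul_inv_cancel, map_one, hu', zero_add, Matrix.one_apply_ne] at h2
    · exact h2.symm
    · intro h
      have := D.hab
      rw [h] at this
      exact lt_irrefl _ this

/-- The node. -/
def node : Node ρ hord where
  φ := D.φ
  Y := Y (hord := hord) D
  π := D.π
  mon_w := D.mon_w
  d_mem := D.d_mem
  x_mem := D.x_isUT
  Y_le := fun _ h => h.1
  dec := by
    intro u hu
    refine ⟨ρ u D.a D.b, show _ ∈ Y (hord := hord) D from ⟨?_, ?_⟩⟩
    · exact IsUT.mul hord hu (D.x_isUT _)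
    · rw [D.add _ _ hu (D.x_isUT _), D.x_ab]
      ring
  Y_norm := by
    rintro u ⟨hu, hu'⟩
    have hmon := D.mon_w
    show _ ∈ Y (hord := hord) D
    have h1 : D.φ w * u * (D.φ w)⁻¹ ∈ USub ρ hord := by
      refine conj_mem_U hord hmon hu.2 ?_
      intro r c hc
      by_cases h2 : ord (D.π⁻¹ c) < ord (D.π⁻¹ r)
      · exact hu.1 _ _ h2
      · have h3 : D.π⁻¹ r ≠ D.π⁻¹ c := fun h => by
          have := D.π⁻¹.injective h
          subst this
          exact lt_irrefl _ hc
        have h4 : ord (D.π⁻¹ r) < ord (D.π⁻¹ c) :=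
          lt_of_le_of_ne (not_lt.1 h2) (fun h => h3 (hord h))
        refine D.van u hu hu' _ _ h4 ?_
        simpa using hc
    refine ⟨h1, ?_⟩
    rw [hmon.conj_apply']
    rw [hu.1 _ _ D.rev]
    simp
  H_norm := fun h hh t => D.H_norm h hh t
  dich := by
    rintro n ⟨π', hπ⟩
    rcases D.dich n π' hπ with h | h
    · left
      intro t
      refine conj_inv_mem_U hord hπ (D.x_diag t) ?_
      intro r c hc
      by_contra h1
      have hrc : π' r ≠ π' c := fun h2 => by
        have := π'.injective h2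
        subst this
        exact lt_irrefl _ hc
      have h2 := h _ _ (D.x_supp t _ _ hrc h1)
      have e1 : ∀ z, π'⁻¹ (π' z) = z := fun z => by simp
      rw [e1, e1] at h2
      omega
    · right
      intro t
      refine conj_inv_mem_U hord hπ (D.y_diag t) ?_
      intro r c hc
      by_contra h1
      have hrc : π' r ≠ π' c := fun h2 => by
        have := π'.injective h2
        subst this
        exact lt_irrefl _ hc
      have h2 := h _ _ (D.y_supp t _ _ hrc h1)
      have e1 : ∀ z, π'⁻¹ (π' z) = z := fun z => by simp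
      rw [e1, e1] at h2
      omega
  ne := by
    intro h
    have h1 := up_of_mem hord h D.hab
    exact D.y_ba h1

theorem node_e : (D.node (hord := hord)).e = D.φ w := rfl

end RootData

/-! ### Generation of the Weyl group -/

open Classical in
/-- The inversions of a permutation among the pairs in `R`. -/
noncomputable def Inv (R : ι → ι → Prop) (ord : ι → ℕ) (π : Equiv.Perm ι) : Finset (ι × ι) :=
  Finset.univ.filter fun q => R q.1 q.2 ∧ ord q.1 < ord q.2 ∧ ord (π q.2) < ord (π q.1)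

theorem mem_Inv {R : ι → ι → Prop} {π : Equiv.Perm ι} {q : ι × ι} :
    q ∈ Inv R ord π ↔ R q.1 q.2 ∧ ord q.1 < ord q.2 ∧ ord (π q.2) < ord (π q.1) := by
  simp [Inv]

include hord in
theorem card_Inv_lt {R : ι → ι → Prop} {π τ : Equiv.Perm ι} {a b : ι} {S : ι → ι → Prop} (hab : ord a < ord b)
    (hSab : S a b) (hRab : R a b) (hR : ∀ c r, R c r → R (τ c) (τ r)) (ha : τ a = b) (hb : τ b = a)
    (hτ : ∀ c r, R c r → ord c < ord r → ord (τ r) < ord (τ c) → S (τ r) (τ c))
    (hπ : ∀ r c, S r c → ord (π c) < ord (π r)) :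
    (Inv R ord (π * τ)).card < (Inv R ord π).card := by
  classical
  let f : ι × ι → ι × ι := fun q => (τ q.1, τ q.2)
  have hf : Function.Injective f := by
    rintro ⟨c, r⟩ ⟨c', r'⟩ h
    simp only [f, Prod.mk.injEq] at h
    rw [τ.injective h.1, τ.injective h.2]
  rw [← Finset.card_image_of_injective _ hf]
  apply Finset.card_lt_card
  rw [Finset.ssubset_iff_of_subset]
  · refine ⟨(a, b), ?_, ?_⟩
    · rw [mem_Inv]
      exact ⟨hRab, hab, hπ _ _ hSab⟩
    · intro h
      obtain ⟨⟨c, r⟩, h1, h2⟩ := Finset.mem_image.1 h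
      simp only [f, Prod.mk.injEq] at h2
      have h3 : c = b := τ.injective (by rw [h2.1, hb])
      have h4 : r = a := τ.injective (by rw [h2.2, ha])
      subst h3 h4
      rw [mem_Inv] at h1
      have := h1.2.1
      simp only at this
      omega
  · intro q hq
    obtain ⟨⟨c, r⟩, h1, rfl⟩ := Finset.mem_image.1 hq
    rw [mem_Inv] at h1
    simp only [Equiv.Perm.mul_apply] at h1
    rw [mem_Inv]
    simp only [f]
    refine ⟨hR _ _ h1.1, ?_, h1.2.2⟩
    by_contra h2
    have h3 : ord (τ r) < ord (τ c) := by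
      refine lt_of_le_of_ne (not_lt.1 h2) ?_
      intro h4
      have h5 : r = c := τ.injective (hord h4)
      subst h5
      exact lt_irrefl _ h1.2.1
    have h4 := hπ _ _ (hτ c r h1.1 h1.2.1 h3)
    have h5 := h1.2.2
    omega

variable {hord}

variable {J : Type*} (D : J → RootData ρ (ord := ord))

section Gen

variable {R : ι → ι → Prop} (hRa : ∀ j, R (D j).a₂ (D j).b₂) (hR : ∀ j c r, R c r → R ((D j).π c) ((D j).π r))
  (hτ : ∀ j c r, R c r → ord c < ord r → ord ((D j).π r) < ord ((D j).π c) →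
    (D j).Sx ((D j).π r) ((D j).π c))
  (hflip : ∀ π, (∃ n, IsMon ρ n π) → π ≠ 1 → ∃ j, ∀ r c, (D j).Sx r c → ord (π c) < ord (π r))

include hord hRa hR hτ hflip in
theorem exists_word (k : ℕ) : ∀ π, (Inv R ord π).card = k → (∃ n, IsMon ρ n π) →
    ∃ g ∈ Subgroup.closure (Set.range fun j => (D j).φ w), IsMon ρ g π := by
  induction k using Nat.strong_induction_on with
  | _ k ih =>
    rintro π hk ⟨n, hn⟩
    by_cases hπ : π = 1
    · subst hπ
      exact ⟨1, Subgroup.one_mem _, isMon_one⟩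
    obtain ⟨j, hj⟩ := hflip π ⟨n, hn⟩ hπ
    have hlt := card_Inv_lt hord (D j).hab₂ (D j).Sx_ab (hRa j) (hR j) (D j).π_a (D j).π_b (hτ j) hj
    rw [hk] at hlt
    obtain ⟨g, hg, hg'⟩ := ih _ hlt (π * (D j).π) rfl ⟨_, hn.mul (D j).mon_w⟩
    refine ⟨g * ((D j).φ w)⁻¹, Subgroup.mul_mem _ hg (Subgroup.inv_mem _ (Subgroup.subset_closure ⟨j, rfl⟩)), ?_⟩
    have h1 := hg'.mul (D j).mon_w.inv
    rwa [mul_inv_cancel_right] at h1

end Gen

/-! ### Assembly -/

variable (hinj : Function.Injective fun j => (D j).π)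
  {R : ι → ι → Prop} (hRa : ∀ j, R (D j).a₂ (D j).b₂) (hR : ∀ j c r, R c r → R ((D j).π c) ((D j).π r))
  (hτ : ∀ j c r, R c r → ord c < ord r → ord ((D j).π r) < ord ((D j).π c) →
    (D j).Sx ((D j).π r) ((D j).π c))
  (hflip : ∀ π, (∃ n, IsMon ρ n π) → π ≠ 1 → ∃ j, ∀ r c, (D j).Sx r c → ord (π c) < ord (π r))

include hinj hRa hR hτ hflip in
/-- The root data. -/
noncomputable def rootCore (hord : Function.Injective ord) : RootCore G :=
  core (node := fun j => (D j).node (hord := hord)) hord hinj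
    (fun π hn => exists_word (hord := hord) D hRa hR hτ hflip _ π rfl hn)

theorem rootCore_U : (rootCore D hinj hRa hR hτ hflip hord).U = USub ρ hord := rfl
theorem rootCore_H : (rootCore D hinj hRa hR hτ hflip hord).H = HSub ρ := rfl
theorem rootCore_N : (rootCore D hinj hRa hR hτ hflip hord).N = NSub ρ := rfl

section Main

variable {p : ℕ} [hp : Fact p.Prime] [CharP F p] [Nonempty ι] (hρ : Function.Injective ρ)
  (hG : (USub ρ hord ⊔ HSub ρ) ⊔ NSub ρ = ⊤)
  (hanti : ∀ n π, IsMon ρ n π → (∀ j r c, (D j).Sx r c → ord (π⁻¹ c) < ord (π⁻¹ r)) →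
    ∀ x ∈ USub ρ hord ⊔ HSub ρ, n⁻¹ * x * n ∈ USub ρ hord ⊔ HSub ρ → x ∈ HSub ρ)

/-- The `(B,N)`-pair. -/
noncomputable def pair : BNPair G := toBN (rootCore D hinj hRa hR hτ hflip hord) hG

include hρ hanti in
theorem hyp : Final.Hyp (pair D hinj hRa hR hτ hflip hG) p (USub ρ hord) (fun j => (D j).φ w) := by
  have hH : ∀ h ∈ HSub ρ, ∀ u ∈ USub ρ hord, h * u * h⁻¹ ∈ USub ρ hord :=
    fun h hh u hu => H_norm_U hord hh hu
  refine
  { hU := isPGroup_USub hord hρ
    U_le := (le_sup_left : USub ρ hord ≤ USub ρ hord ⊔ HSub ρ)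
    U_norm := ?_
    B_dec := ?_
    T_cop := ?_
    he := fun j => ⟨j, rfl⟩
    hes := ?_
    hne := ?_
    hT := ?_ }
  · intro b hb u hu
    obtain ⟨v, hv, h, hh, rfl⟩ := (mem_sup_iff_of_norm hH).1 hb
    have h1 := hH h hh u hu
    have e : v * h * u * (v * h)⁻¹ = v * (h * u * h⁻¹) * v⁻¹ := by group
    rw [e]
    exact Subgroup.mul_mem _ (Subgroup.mul_mem _ hv h1) (Subgroup.inv_mem _ hv)
  · intro b hb
    obtain ⟨v, hv, h, hh, rfl⟩ := (mem_sup_iff_of_norm hH).1 hb
    exact ⟨v, hv, h, ⟨Subgroup.mem_sup_right hh, HSub_le_NSub hh⟩, rfl⟩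
  · have h1 : (pair D hinj hRa hR hτ hflip hG).B ⊓ (pair D hinj hRa hR hτ hflip hG).N = HSub ρ := BN_inf' hord
    rw [h1]
    exact not_dvd_HSub hρ
  · rintro _ ⟨j, rfl⟩
    exact ⟨j, rfl⟩
  · rintro _ ⟨j, rfl⟩
    refine ⟨(D j).φ (x (-1)), (D j).x_isUT _, ?_⟩
    have h1 : (D j).φ w * (D j).φ (x (-1)) * ((D j).φ w)⁻¹ = (D j).φ (y 1) := by
      have := ((D j).node (hord := hord)).conj_x (-1)
      rw [neg_neg] at this
      exact this
    show (D j).φ w * (D j).φ (x (-1)) * ((D j).φ w)⁻¹ ∉ USub ρ hord ⊔ HSub ρ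
    rw [h1]
    exact ((D j).node (hord := hord)).ne
  · rintro n ⟨π, hπ⟩ hlen x' hx' hn'
    have h1 : ∀ j r c, (D j).Sx r c → ord (π⁻¹ c) < ord (π⁻¹ r) := by
      intro j r c hS
      rcases (D j).dich n π hπ with h | h
      · exfalso
        have h2 := hlen j
        have hU : n⁻¹ * (D j).φ (x (-1)) * n ∈ USub ρ hord := by
          refine conj_inv_mem_U hord hπ ((D j).x_diag _) ?_
          intro r c hc
          by_contra h1
          have hrc : π r ≠ π c := fun h2 => by
            have := π.injective h2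
            subst this
            exact lt_irrefl _ hc
          have h2 := h _ _ ((D j).x_supp _ _ _ hrc h1)
          have e1 : ∀ z, π⁻¹ (π z) = z := fun z => by simp
          rw [e1, e1] at h2
          omega
        have h3 : (D j).φ w * (D j).φ (x (-1)) * ((D j).φ w)⁻¹ = (D j).φ (y 1) := by
          have := ((D j).node (hord := hord)).conj_x (-1)
          rw [neg_neg] at this
          exact this
        have h4 := len_lt_of_conj (P := pair D hinj hRa hR hτ hflip hG) (s := (D j).φ w) (n := n)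
          (x := (D j).φ (x (-1))) ⟨j, rfl⟩ ⟨π, hπ⟩ (Subgroup.mem_sup_left ((D j).x_isUT _))
          (by
            rw [h3]
            exact ((D j).node (hord := hord)).ne)
          (Subgroup.mem_sup_left hU)
        omega
      · exact h r c hS
    have h2 := hanti n π hπ h1 x' hx' hn'
    have h3 : (pair D hinj hRa hR hτ hflip hG).B ⊓ (pair D hinj hRa hR hτ hflip hG).N = HSub ρ := BN_inf' hord
    rw [h3]
    exact h2

variable (p) in
include hinj hRa hR hτ hflip hρ hG hanti in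
/-- The Steinberg character of the central quotient. -/
theorem main [Fintype J] [DecidableEq J] :
    ∃ χ : (G ⧸ Subgroup.center G) → ℂ, Cfsg.IsIrrCharacter (G ⧸ Subgroup.center G) χ ∧
    ∀ Q : Sylow p (G ⧸ Subgroup.center G), χ 1 = Nat.card Q ∧ ∀ x : G ⧸ Subgroup.center G, x ∈ Q → x ≠ 1 → χ x = 0 :=
  Final.quot_main _ (hyp D hinj hRa hR hτ hflip hρ hG hanti)

end Main

end Cfsg.Agent.Lib.StOm.Builder
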