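import Mathlib
import Cfsg.Agent.Lib.Classical.Orth.Siegel

/-!
Generation of the orthogonal group from a hyperbolic frame: the Eichler transformations at the frame
vectors together with a "monomial" subgroup generate `O(Q)`, and hence the commutator subgroup is
generated by these Eichler transformations and the monomial elements inside it.
-/

set_option autoImplicit false
set_option linter.unusedSectionVars false
set_option linter.unusedSimpArgs false
set_option linter.unusedVariables false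

namespace Cfsg.Agent.Lib.StOm.Gen

open Matrix QuadraticMap Module
open Cfsg.Agent.Lib.Classical.Orth.Basic
open Cfsg.Agent.Lib.Classical.Orth.Siegel

/-- Abstract group theory. -/
theorem commutator_le_of_top {O : Type*} [Group O] (A B : Subgroup O)
    (hnorm : ∀ b ∈ B, ∀ a ∈ A, b * a * b⁻¹ ∈ A) (htop : A ⊔ B = ⊤) :
    commutator O ≤ A ⊔ (B ⊓ commutator O) := by
  have hN : Subgroup.normalizer (A : Set O) = ⊤ := by
    rw [eq_top_iff, ← htop]
    refine sup_le Subgroup.le_normalizer ?_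
    intro b hb
    rw [Subgroup.mem_normalizer_iff]
    intro h
    constructor
    · exact fun h1 => hnorm b hb h h1
    · intro h1
      have h2 := hnorm b⁻¹ (B.inv_mem hb) _ h1
      have e : b⁻¹ * (b * h * b⁻¹) * b⁻¹⁻¹ = h := by group
      rwa [e] at h2
  have : A.Normal := Subgroup.normalizer_eq_top_iff.1 hN
  let π := QuotientGroup.mk' A
  have h1 : (⊤ : Subgroup O).map π = B.map π := by
    rw [← htop, Subgroup.map_sup]
    have : A.map π = ⊥ := by
      rw [eq_bot_iff]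
      rintro _ ⟨a, ha, rfl⟩
      simpa [π] using ha
    rw [this, bot_sup_eq]
  have h2 : (commutator O).map π = (⁅B, B⁆ : Subgroup O).map π := by
    rw [commutator_def, Subgroup.map_commutator, Subgroup.map_commutator, h1]
  have h3 : commutator O ≤ ⁅B, B⁆ ⊔ A := by
    have h4 : commutator O ≤ ((⁅B, B⁆ : Subgroup O).map π).comap π := by
      rw [← h2]
      exact Subgroup.le_comap_map _ _
    rwa [Subgroup.comap_map_eq, QuotientGroup.ker_mk'] at h4
  rw [sup_comm]
  refine h3.trans (sup_le_sup_right ?_ _)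
  refine le_inf ?_ (Subgroup.commutator_mono le_top le_top)
  rw [Subgroup.commutator_le]
  intro a ha b hb
  rw [commutatorElement_def]
  exact B.mul_mem (B.mul_mem (B.mul_mem ha hb) (B.inv_mem ha)) (B.inv_mem hb)

variable {ι : Type} [Fintype ι] [DecidableEq ι] {F : Type*} [Field F]
variable {Q : QuadraticForm F (ι → F)}

set_option quotPrecheck false in
local notation "𝔣" => polar (⇑Q)

/-- The Eichler transformation killing the orthogonal part of a singular vector. -/
theorem act_kill {z f w : ι → F} (hz : Q z = 0) (hf : Q f = 0) (hzf : 𝔣 z f = 1) (hzw : 𝔣 z w = 0)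
    (hfw : 𝔣 f w = 0) {a b : F} (hb : b ≠ 0) (hu : Q (w + b • f + a • z) = 0)
    (hB : 𝔣 z ((-b⁻¹) • w) = 0) :
    act (eichlerIso hz hB) (w + b • f + a • z) = b • f := by
  have hzz : 𝔣 z z = 0 := by rw [polar_self_eq, hz, mul_zero]
  have hfz : 𝔣 f z = 1 := by rw [polar_comm]; exact hzf
  have hwz : 𝔣 w z = 0 := by rw [polar_comm]; exact hzw
  have hwf : 𝔣 w f = 0 := by rw [polar_comm]; exact hfw
  have hww : 𝔣 w w = 2 * Q w := polar_self_eq _ _
  have hQ1 : Q w + a * b = 0 := by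
    have e : Q (w + b • f + a • z) = Q w + a * b := by
      rw [add_assoc, Q_add, Q_add, Q_smul, Q_smul, hf, hz]
      simp only [polar_add_right, polar_smul_right', hwf, hwz, hfz, polar_smul_left', mul_zero, add_zero, mul_one]
      ring
    rw [← e]
    exact hu
  rw [act_eichlerIso]
  simp only [polar_add_right, polar_smul_right', polar_smul_left', hzw, hzf, hzz, mul_zero, zero_add, add_zero, mul_one,
    hww, hwf, hwz, Q_smul]
  have h2 : a = -(b⁻¹ * Q w) := by
    field_simp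
    linear_combination hQ1
  subst h2
  have hbb : b⁻¹ * b = 1 := inv_mul_cancel₀ hb
  ext k
  simp only [Pi.add_apply, Pi.sub_apply, Pi.smul_apply, smul_eq_mul]
  field_simp
  ring

/-- A hyperbolic family. -/
structure HF (Q : QuadraticForm F (ι → F)) (r : ℕ) where
  e : Fin r → ι → F
  f : Fin r → ι → F
  he : ∀ i, Q (e i) = 0
  hf : ∀ i, Q (f i) = 0
  hee : ∀ i j, polar (⇑Q) (e i) (e j) = 0
  hff : ∀ i j, polar (⇑Q) (f i) (f j) = 0
  hef : ∀ i j, polar (⇑Q) (e i) (f j) = if i = j then 1 else 0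

section Frame

variable {m : ℕ} (L : HF Q m)

/-- The frame vectors. -/
def frameSet : Set (ι → F) := Set.range L.e ∪ Set.range L.f

theorem frame_singular {z : ι → F} (hz : z ∈ frameSet L) : Q z = 0 := by
  rcases hz with ⟨i, rfl⟩ | ⟨i, rfl⟩
  · exact L.he i
  · exact L.hf i

/-- The Eichler transformations at frame vectors. -/
def rootSet : Set ↥(Cfsg.isometryGroup F (⇑Q)) :=
  {g | ∃ z ∈ frameSet L, ∃ (hz : Q z = 0) (b : ι → F) (hb : 𝔣 z b = 0), g = eichlerIso hz hb}

/-- The group generated by the Eichler transformations at frame vectors. -/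
def rootG : Subgroup ↥(Cfsg.isometryGroup F (⇑Q)) := Subgroup.closure (rootSet L)

/-- `g` fixes the frame below `k`. -/
def Fixes (g : ↥(Cfsg.isometryGroup F (⇑Q))) (k : ℕ) : Prop :=
  ∀ i : Fin m, (i : ℕ) < k → act g (L.e i) = L.e i ∧ act g (L.f i) = L.f i

theorem Fixes.mul {g h : ↥(Cfsg.isometryGroup F (⇑Q))} {k : ℕ} (hg : Fixes L g k) (hh : Fixes L h k) :
    Fixes L (g * h) k := fun i hi => by
  rw [act_mul, act_mul, (hh i hi).1, (hh i hi).2, (hg i hi).1, (hg i hi).2]
  exact ⟨rfl, rfl⟩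

theorem Fixes.one (k : ℕ) : Fixes L 1 k := fun i _ => by
  rw [act_one, act_one]
  exact ⟨rfl, rfl⟩

/-- The hypotheses of the frame reduction. -/
structure FrameHyp (K : Subgroup ↥(Cfsg.isometryGroup F (⇑Q))) : Prop where
  hE : ∀ (k : Fin m) (b : ι → F) (hb : polar (⇑Q) (L.e k) b = 0), eichlerIso (L.he k) hb ∈ K
  hd : ∀ (k : Fin m) (c : F), c ≠ 0 → ∃ n ∈ K, Fixes L n k ∧ act n (L.e k) = c • L.e k ∧ act n (L.f k) = c⁻¹ • L.f k
  hτ : ∀ k : Fin m, ∃ n ∈ K, Fixes L n k ∧ act n (L.e k) = L.f k ∧ act n (L.f k) = L.e k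
  hs : ∀ k j : Fin m, k < j → ∃ n ∈ K, Fixes L n k ∧ act n (L.e j) = L.e k ∧ act n (L.f j) = L.f k
  hbase : ∀ g, Fixes L g m → g ∈ K
  hW : ∀ v, Q v = 0 → (∀ i, polar (⇑Q) (L.e i) v = 0 ∧ polar (⇑Q) (L.f i) v = 0) → v = 0

variable {L} {K : Subgroup ↥(Cfsg.isometryGroup F (⇑Q))} (H : FrameHyp L K)

include H in
/-- The Eichler transformation moving a singular vector to a multiple of `f k`. -/
theorem exists_eichler (k : Fin m) {u : ι → F} (hu : Q u = 0) (hb : 𝔣 (L.e k) u ≠ 0) :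
    ∃ n ∈ K, act n u = (𝔣 (L.e k) u) • L.f k ∧ act n (L.e k) = L.e k ∧
      ∀ y, 𝔣 (L.e k) y = 0 → 𝔣 (L.f k) y = 0 → 𝔣 u y = 0 → act n y = y := by
  set b := 𝔣 (L.e k) u with hbdef
  set a := 𝔣 (L.f k) u with hadef
  set w := u - b • L.f k - a • L.e k with hw
  have hee : 𝔣 (L.e k) (L.e k) = 0 := L.hee k k
  have hff : 𝔣 (L.f k) (L.f k) = 0 := L.hff k k
  have hef : 𝔣 (L.e k) (L.f k) = 1 := by rw [L.hef, if_pos rfl]
  have hfe : 𝔣 (L.f k) (L.e k) = 1 := by rw [polar_comm]; exact hef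
  have hzw : 𝔣 (L.e k) w = 0 := by
    rw [hw, polar_sub_right, polar_sub_right, polar_smul_right', polar_smul_right', hef, hee, ← hbdef]
    ring
  have hfw : 𝔣 (L.f k) w = 0 := by
    rw [hw, polar_sub_right, polar_sub_right, polar_smul_right', polar_smul_right', hff, hfe, ← hadef]
    ring
  have hB : 𝔣 (L.e k) ((-b⁻¹) • w) = 0 := by
    rw [polar_smul_right', hzw, mul_zero]
  have hu' : w + b • L.f k + a • L.e k = u := by
    rw [hw]
    abel
  refine ⟨eichlerIso (L.he k) hB, H.hE k _ hB, ?_, ?_, ?_⟩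
  · have h1 := act_kill (L.he k) (L.hf k) hef hzw hfw hb (a := a) (by rw [hu']; exact hu) hB
    rwa [hu'] at h1
  · rw [act_eichlerIso, hee, polar_smul_left', polar_comm (⇑Q) w, hzw]
    simp
  · intro y h1 h2 h3
    rw [act_eichlerIso, h1, polar_smul_left']
    have h4 : 𝔣 w y = 0 := by
      rw [hw, polar_sub_left, polar_sub_left, polar_smul_left', polar_smul_left', h3, h2, h1]
      ring
    rw [h4]
    simp

include H in
/-- The frame reduction. -/
theorem mem_of_fixes (d : ℕ) : ∀ (k : ℕ), k + d = m → ∀ g, Fixes L g k → g ∈ K := by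
  induction d with
  | zero =>
    intro k hk g hg
    rw [add_zero] at hk
    subst hk
    exact H.hbase g hg
  | succ d ih =>
    intro k hk g hg
    have hkm : k < m := by omega
    let K₀ : Fin m := ⟨k, hkm⟩
    have hef : 𝔣 (L.e K₀) (L.f K₀) = 1 := by rw [L.hef, if_pos rfl]
    set u := act g (L.e K₀) with hu
    have hQu : Q u = 0 := by rw [hu, Q_act]; exact L.he K₀
    have hun : u ≠ 0 := by
      intro h0
      have h1 := polar_act g (L.e K₀) (L.f K₀)
      rw [← hu, h0, hef] at h1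
      simp [polar] at h1
    -- lower frame
    have hlow1 : ∀ i : Fin m, (i : ℕ) < k → 𝔣 (L.e i) u = 0 := by
      intro i hi
      have h1 := polar_act g (L.e i) (L.e K₀)
      rw [(hg i hi).1, ← hu] at h1
      rw [h1]
      exact L.hee _ _
    have hlow2 : ∀ i : Fin m, (i : ℕ) < k → 𝔣 (L.f i) u = 0 := by
      intro i hi
      have h1 := polar_act g (L.f i) (L.e K₀)
      rw [(hg i hi).2, ← hu] at h1
      rw [h1, polar_comm, L.hef, if_neg]
      intro h2
      rw [← h2] at hi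
      exact lt_irrefl _ hi
    -- a monomial element making the coefficient nonzero
    have hn1 : ∃ n ∈ K, Fixes L n k ∧ 𝔣 (L.e K₀) (act n u) ≠ 0 := by
      have h1 : ¬ (∀ i, 𝔣 (L.e i) u = 0 ∧ 𝔣 (L.f i) u = 0) := fun h => hun (H.hW u hQu h)
      push Not at h1
      obtain ⟨i, hi⟩ := h1
      have hik : k ≤ (i : ℕ) := by
        by_contra h2
        have h3 : (i : ℕ) < k := not_le.1 h2
        exact hi (hlow1 i h3) (hlow2 i h3)
      have hsw : ∃ n ∈ K, Fixes L n k ∧ act n (L.e i) = L.e K₀ ∧ act n (L.f i) = L.f K₀ := by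
        rcases eq_or_lt_of_le hik with h2 | h2
        · have : i = K₀ := Fin.ext h2.symm
          rw [this]
          exact ⟨1, K.one_mem, Fixes.one L k, act_one _, act_one _⟩
        · exact H.hs K₀ i h2
      obtain ⟨n, hn, hn1, hn2, hn3⟩ := hsw
      by_cases h2 : 𝔣 (L.e i) u = 0
      · have h3 := hi h2
        obtain ⟨t, ht, ht1, ht2, ht3⟩ := H.hτ K₀
        have ht1' : Fixes L t k := ht1
        refine ⟨t * n, K.mul_mem ht hn, ht1'.mul L hn1, ?_⟩
        rw [← ht3, ← hn3, ← act_mul, polar_act]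
        exact h3
      · refine ⟨n, hn, hn1, ?_⟩
        rw [← hn2, polar_act]
        exact h2
    obtain ⟨n₁, hn₁, hn₁f, hb⟩ := hn1
    set u₁ := act n₁ u with hu₁
    have hQu₁ : Q u₁ = 0 := by rw [hu₁, Q_act]; exact hQu
    obtain ⟨E₁, hE₁, hE₁1, hE₁2, hE₁3⟩ := exists_eichler H K₀ hQu₁ hb
    have hE₁f : Fixes L E₁ k := by
      intro i hi
      have hne : K₀ ≠ i := by
        intro h2
        rw [← h2] at hi
        exact lt_irrefl _ hi
      have hne' : i ≠ K₀ := fun h => hne h.symm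
      have h5 : 𝔣 u₁ (L.e i) = 0 := by
        rw [hu₁]
        have h6 := polar_act n₁ u (L.e i)
        rw [(hn₁f i hi).1] at h6
        rw [h6, polar_comm]
        exact hlow1 i hi
      have h6 : 𝔣 u₁ (L.f i) = 0 := by
        rw [hu₁]
        have h6 := polar_act n₁ u (L.f i)
        rw [(hn₁f i hi).2] at h6
        rw [h6, polar_comm]
        exact hlow2 i hi
      refine ⟨hE₁3 _ (L.hee _ _) ?_ h5, hE₁3 _ ?_ (L.hff _ _) h6⟩
      · rw [polar_comm, L.hef, if_neg hne']
      · rw [L.hef, if_neg hne]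
    obtain ⟨d₁, hd₁, hd₁f, -, hd₁2⟩ := H.hd K₀ _ hb
    obtain ⟨t, ht, htf, -, ht2⟩ := H.hτ K₀
    let x := t * d₁ * E₁ * n₁
    have hx : x ∈ K := K.mul_mem (K.mul_mem (K.mul_mem ht hd₁) hE₁) hn₁
    have hxf : Fixes L x k := ((htf.mul L hd₁f).mul L hE₁f).mul L hn₁f
    have hxu : act x u = L.e K₀ := by
      show act (t * d₁ * E₁ * n₁) u = _
      rw [act_mul, act_mul, act_mul, ← hu₁, hE₁1, act_smul, hd₁2, smul_smul, mul_inv_cancel₀ hb, one_smul, ht2]
    let g₁ := x * g
    have hg₁f : Fixes L g₁ k := hxf.mul L hg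
    have hg₁e : act g₁ (L.e K₀) = L.e K₀ := by
      show act (x * g) _ = _
      rw [act_mul, ← hu, hxu]
    set u₂ := act g₁ (L.f K₀) with hu₂
    have hQu₂ : Q u₂ = 0 := by rw [hu₂, Q_act]; exact L.hf K₀
    have h21 : 𝔣 (L.e K₀) u₂ = 1 := by
      have h1 := polar_act g₁ (L.e K₀) (L.f K₀)
      rw [hg₁e, ← hu₂, hef] at h1
      exact h1
    obtain ⟨E₂, hE₂, hE₂1, hE₂2, hE₂3⟩ := exists_eichler H K₀ hQu₂ (by rw [h21]; exact one_ne_zero)
    rw [h21, one_smul] at hE₂1
    have hE₂f : Fixes L E₂ k := by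
      intro i hi
      have hne : K₀ ≠ i := by
        intro h2
        rw [← h2] at hi
        exact lt_irrefl _ hi
      have hne' : i ≠ K₀ := fun h => hne h.symm
      have h5 : 𝔣 u₂ (L.e i) = 0 := by
        have h6 := polar_act g₁ (L.f K₀) (L.e i)
        rw [(hg₁f i hi).1, ← hu₂] at h6
        rw [h6, polar_comm, L.hef, if_neg hne']
      have h6 : 𝔣 u₂ (L.f i) = 0 := by
        have h6 := polar_act g₁ (L.f K₀) (L.f i)
        rw [(hg₁f i hi).2, ← hu₂] at h6
        rw [h6]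
        exact L.hff _ _
      refine ⟨hE₂3 _ (L.hee _ _) ?_ h5, hE₂3 _ ?_ (L.hff _ _) h6⟩
      · rw [polar_comm, L.hef, if_neg hne']
      · rw [L.hef, if_neg hne]
    have hfin : Fixes L (E₂ * g₁) (k + 1) := by
      intro i hi
      by_cases h1 : (i : ℕ) < k
      · exact (hE₂f.mul L hg₁f) i h1
      · have h2 : i = K₀ := Fin.ext (by show (i : ℕ) = k; omega)
        rw [h2, act_mul E₂ g₁, act_mul E₂ g₁, hg₁e, ← hu₂, hE₂1, hE₂2]
        exact ⟨rfl, rfl⟩
    have h1 := ih (k + 1) (by omega) _ hfin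
    have e : g = x⁻¹ * (E₂⁻¹ * (E₂ * g₁)) := by
      show g = x⁻¹ * (E₂⁻¹ * (E₂ * (x * g)))
      group
    rw [e]
    exact K.mul_mem (K.inv_mem hx) (K.mul_mem (K.inv_mem hE₂) h1)

include H in
theorem eq_top_of_frame : K = ⊤ := by
  rw [eq_top_iff]
  intro g _
  exact mem_of_fixes H m 0 (by omega) g (fun i hi => absurd hi (Nat.not_lt_zero _))

variable (L)

/-- Scaling the singular vector of an Eichler transformation. -/
theorem eichlerIso_smul {z b : ι → F} (c : F) (hz : Q z = 0) (hz' : Q (c • z) = 0) (hb : 𝔣 (c • z) b = 0)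
    (hb' : 𝔣 z (c • b) = 0) : eichlerIso hz' hb = eichlerIso hz hb' := by
  apply ext_act
  intro x
  rw [act_eichlerIso, act_eichlerIso]
  simp only [polar_smul_left', polar_smul_right', Q_smul]
  ext k
  simp only [Pi.add_apply, Pi.sub_apply, Pi.smul_apply, smul_eq_mul]
  ring

variable (N₀ : Subgroup ↥(Cfsg.isometryGroup F (⇑Q)))

/-- `N₀` permutes the frame vectors up to scalars. -/
def PermFrame : Prop := ∀ n ∈ N₀, ∀ z ∈ frameSet L, ∃ c : F, ∃ z' ∈ frameSet L, act n z = c • z'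

theorem norm_rootG (hN : PermFrame L N₀) : ∀ b ∈ N₀, ∀ a ∈ rootG L, b * a * b⁻¹ ∈ rootG L := by
  intro n hn a ha
  have : rootG L ≤ (rootG L).comap (MulAut.conj n).toMonoidHom := by
    rw [rootG, Subgroup.closure_le]
    rintro _ ⟨z, hz, hz0, b, hb, rfl⟩
    show n * eichlerIso hz0 hb * n⁻¹ ∈ Subgroup.closure (rootSet L)
    rw [conj_eichlerIso]
    obtain ⟨c, z', hz', hcz⟩ := hN n hn z hz
    apply Subgroup.subset_closure
    have h1 : Q z' = 0 := frame_singular L hz'
    have h2 : polar (⇑Q) z' (c • act n b) = 0 := by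
      rw [polar_smul_right', ← polar_smul_left', ← hcz, polar_act, hb]
    refine ⟨z', hz', h1, _, h2, ?_⟩
    have h3 : eichlerIso (z := act n z) (by rwa [Q_act]) (by rwa [polar_act] : polar (⇑Q) (act n z) (act n b) = 0)
        = eichlerIso (z := c • z') (by rw [← hcz, Q_act]; exact hz0)
          (by rw [← hcz, polar_act]; exact hb : polar (⇑Q) (c • z') (act n b) = 0) := by
      congr 1
    rw [h3]
    exact eichlerIso_smul c h1 _ _ _
  exact this ha

/-- The main generation theorem. -/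
theorem commutator_le (hN : PermFrame L N₀)
    (hd' : ∀ (k : Fin m) (c : F), c ≠ 0 → ∃ n ∈ N₀, Fixes L n k ∧ act n (L.e k) = c • L.e k ∧ act n (L.f k) = c⁻¹ • L.f k)
    (hτ' : ∀ k : Fin m, ∃ n ∈ N₀, Fixes L n k ∧ act n (L.e k) = L.f k ∧ act n (L.f k) = L.e k)
    (hs' : ∀ k j : Fin m, k < j → ∃ n ∈ N₀, Fixes L n k ∧ act n (L.e j) = L.e k ∧ act n (L.f j) = L.f k)
    (hbase' : ∀ g, Fixes L g m → g ∈ N₀)
    (hW : ∀ v, Q v = 0 → (∀ i, polar (⇑Q) (L.e i) v = 0 ∧ polar (⇑Q) (L.f i) v = 0) → v = 0) :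
    commutator ↥(Cfsg.isometryGroup F (⇑Q)) ≤ rootG L ⊔ (N₀ ⊓ commutator ↥(Cfsg.isometryGroup F (⇑Q))) := by
  refine commutator_le_of_top _ _ (norm_rootG L N₀ hN) ?_
  refine eq_top_of_frame (L := L) ⟨?_, ?_, ?_, ?_, ?_, hW⟩
  · intro k b hb
    refine Subgroup.mem_sup_left (Subgroup.subset_closure ⟨L.e k, Or.inl ⟨k, rfl⟩, L.he k, b, hb, rfl⟩)
  · intro k c hc
    obtain ⟨n, hn, h⟩ := hd' k c hc
    exact ⟨n, Subgroup.mem_sup_right hn, h⟩
  · intro k
    obtain ⟨n, hn, h⟩ := hτ' k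
    exact ⟨n, Subgroup.mem_sup_right hn, h⟩
  · intro k j hkj
    obtain ⟨n, hn, h⟩ := hs' k j hkj
    exact ⟨n, Subgroup.mem_sup_right hn, h⟩
  · intro g hg
    exact Subgroup.mem_sup_right (hbase' g hg)

end Frame

end Cfsg.Agent.Lib.StOm.Gen
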