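import Mathlib
import Cfsg.Agent.Lib.StOm.Gen
import Cfsg.Agent.Lib.StOm.Builder

/-!
Quadratic forms in coordinates `Σ v(E i) v(F' i) + R v`, with at most one coordinate outside the hyperbolic frame:
monomial isometries, the group `O(Q)` generated from the frame, and `Ω = ⟨U, H, N⟩`.
-/

set_option autoImplicit false
set_option linter.unusedSectionVars false
set_option linter.unusedSimpArgs false
set_option linter.unusedVariables false

namespace Cfsg.Agent.Lib.StOm.Coord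

open Matrix QuadraticMap Module
open Cfsg.Agent.Lib.Classical.Orth.Basic
open Cfsg.Agent.Lib.Classical.Orth.Siegel
open Cfsg.Agent.Lib.StOm.Gen
open Cfsg.Agent.Lib.StGen.Mono

variable {ι : Type} [Fintype ι] [DecidableEq ι] {F : Type*} [Field F] {m : ℕ}

/-- Coordinates. -/
structure Fr (ι : Type) [Fintype ι] [DecidableEq ι] (F : Type*) [Field F] (m : ℕ) where
  Q : QuadraticForm F (ι → F)
  E : Fin m → ι
  E' : Fin m → ι
  hE : Function.Injective E
  hE' : Function.Injective E'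
  hEE' : ∀ i j, E i ≠ E' j
  R : (ι → F) → F
  hQ : ∀ v, Q v = ∑ i, v (E i) * v (E' i) + R v
  hR : ∀ v v', (∀ r, (∀ i, r ≠ E i) → (∀ i, r ≠ E' i) → v r = v' r) → R v = R v'
  hZ : ∀ r r', (∀ i, r ≠ E i) → (∀ i, r ≠ E' i) → (∀ i, r' ≠ E i) → (∀ i, r' ≠ E' i) → r = r'
  hA : ∀ v, (∀ i, v (E i) = 0 ∧ v (E' i) = 0) → R v = 0 → v = 0

/-- The basis vectors. -/
abbrev sg (r : ι) : ι → F := Pi.single r 1

/-- The isometry group to matrices. -/
def rhoO (Q : QuadraticForm F (ι → F)) : ↥(Cfsg.isometryGroup F (⇑Q)) →* Matrix ι ι F :=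
  (Units.coeHom (Matrix ι ι F)).comp (Cfsg.isometryGroup F (⇑Q)).subtype

@[simp] theorem rhoO_apply (Q : QuadraticForm F (ι → F)) (g : ↥(Cfsg.isometryGroup F (⇑Q))) :
    rhoO Q g = ((g : GL ι F) : Matrix ι ι F) := rfl

/-- `Ω` to matrices. -/
def rhoG (Q : QuadraticForm F (ι → F)) : ↥(Cfsg.Omega F (⇑Q)) →* Matrix ι ι F :=
  (rhoO Q).comp (Cfsg.Omega F (⇑Q)).subtype

theorem rhoG_apply (Q : QuadraticForm F (ι → F)) (g : ↥(Cfsg.Omega F (⇑Q))) :
    rhoG Q g = rhoO Q g.1 := rfl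

theorem rhoG_inj (Q : QuadraticForm F (ι → F)) : Function.Injective (rhoG Q) := by
  intro a b h
  apply Subtype.ext
  apply Subtype.ext
  apply Units.ext
  exact h

theorem act_single (Q : QuadraticForm F (ι → F)) (g : ↥(Cfsg.isometryGroup F (⇑Q))) (c r : ι) :
    act g (sg c) r = rhoO Q g r c := by
  simp [act, Matrix.mulVec_single_one]

namespace Fr

variable (T : Fr ι F m)

local notation "Q₀" => T.Q

set_option quotPrecheck false in
local notation "𝔣" => polar (⇑T.Q)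

theorem R_zero : T.R 0 = 0 := by
  have h := T.hQ 0
  simpa using h.symm

theorem sum_add_single_E (i : Fin m) (x : ι → F) :
    ∑ k, (sg (T.E i) + x : ι → F) (T.E k) * (sg (T.E i) + x : ι → F) (T.E' k) = ∑ k, x (T.E k) * x (T.E' k) + x (T.E' i) := by
  have h1 : ∀ k, (sg (T.E i) + x : ι → F) (T.E k) * (sg (T.E i) + x : ι → F) (T.E' k) =
      x (T.E k) * x (T.E' k) + if k = i then x (T.E' k) else 0 := by
    intro k
    have h2 : (sg (T.E i) : ι → F) (T.E' k) = 0 := by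
      simp [Pi.single_apply, (T.hEE' i k).symm]
    simp only [Pi.add_apply, h2, zero_add]
    by_cases h3 : k = i
    · subst h3
      simp [add_mul]
      ring
    · have h4 : T.E k ≠ T.E i := fun h => h3 (T.hE h)
      simp [h3, h4, Pi.single_apply]
  simp only [h1, Finset.sum_add_distrib, Finset.sum_ite_eq', Finset.mem_univ, if_true]

theorem sum_add_single_E' (i : Fin m) (x : ι → F) :
    ∑ k, (sg (T.E' i) + x : ι → F) (T.E k) * (sg (T.E' i) + x : ι → F) (T.E' k) = ∑ k, x (T.E k) * x (T.E' k) + x (T.E i) := by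
  have h1 : ∀ k, (sg (T.E' i) + x : ι → F) (T.E k) * (sg (T.E' i) + x : ι → F) (T.E' k) =
      x (T.E k) * x (T.E' k) + if k = i then x (T.E k) else 0 := by
    intro k
    have h2 : (sg (T.E' i) : ι → F) (T.E k) = 0 := by
      simp [Pi.single_apply, (T.hEE' k i)]
    simp only [Pi.add_apply, h2, zero_add]
    by_cases h3 : k = i
    · subst h3
      simp [mul_add]
      ring
    · have h4 : T.E' k ≠ T.E' i := fun h => h3 (T.hE' h)
      simp [h3, h4, Pi.single_apply]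
  simp only [h1, Finset.sum_add_distrib, Finset.sum_ite_eq', Finset.mem_univ, if_true]

theorem R_add_E (i : Fin m) (x : ι → F) : T.R (sg (T.E i) + x) = T.R x := by
  apply T.hR
  intro r h1 _
  simp [Pi.single_apply, h1 i]

theorem R_add_E' (i : Fin m) (x : ι → F) : T.R (sg (T.E' i) + x) = T.R x := by
  apply T.hR
  intro r _ h1
  simp [Pi.single_apply, h1 i]

theorem Q_E (i : Fin m) : T.Q (sg (T.E i)) = 0 := by
  have h := T.hQ (sg (T.E i) + 0)
  rw [sum_add_single_E, R_add_E, R_zero, add_zero] at h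
  simpa using h

theorem Q_E' (i : Fin m) : T.Q (sg (T.E' i)) = 0 := by
  have h := T.hQ (sg (T.E' i) + 0)
  rw [sum_add_single_E', R_add_E', R_zero, add_zero] at h
  simpa using h

theorem polar_E (i : Fin m) (x : ι → F) : 𝔣 (sg (T.E i)) x = x (T.E' i) := by
  simp only [polar]
  rw [T.hQ (sg (T.E i) + x), sum_add_single_E, R_add_E, Q_E, T.hQ x]
  ring

theorem polar_E' (i : Fin m) (x : ι → F) : 𝔣 (sg (T.E' i)) x = x (T.E i) := by
  simp only [polar]
  rw [T.hQ (sg (T.E' i) + x), sum_add_single_E', R_add_E', Q_E', T.hQ x]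
  ring

/-- The hyperbolic family. -/
noncomputable def hf : HF T.Q m where
  e i := sg (T.E i)
  f i := sg (T.E' i)
  he := T.Q_E
  hf := T.Q_E'
  hee i j := by
    rw [polar_E]
    simp [Pi.single_apply, (T.hEE' j i)]
  hff i j := by
    rw [polar_E']
    simp [Pi.single_apply, (T.hEE' i j).symm]
  hef i j := by
    rw [polar_E]
    simp only [Pi.single_apply, T.hE'.eq_iff]

@[simp] theorem hf_e (i : Fin m) : T.hf.e i = sg (T.E i) := rfl
@[simp] theorem hf_f (i : Fin m) : T.hf.f i = sg (T.E' i) := rfl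

theorem hW (v : ι → F) (h0 : T.Q v = 0) (h : ∀ i, 𝔣 (T.hf.e i) v = 0 ∧ 𝔣 (T.hf.f i) v = 0) : v = 0 := by
  have h1 : ∀ i, v (T.E i) = 0 ∧ v (T.E' i) = 0 := by
    intro i
    have h2 := h i
    rw [hf_e, hf_f, polar_E, polar_E'] at h2
    exact ⟨h2.2, h2.1⟩
  apply T.hA v h1
  rw [T.hQ] at h0
  simpa [h1] using h0

/-- A nonframe basis vector is not singular. -/
theorem frame_of_Q {r : ι} (hr : T.Q (sg r) = 0) : sg r ∈ frameSet T.hf := by
  by_contra hcon
  have h1 : ∀ i, r ≠ T.E i := by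
    rintro i rfl
    exact hcon (Or.inl ⟨i, rfl⟩)
  have h2 : ∀ i, r ≠ T.E' i := by
    rintro i rfl
    exact hcon (Or.inr ⟨i, rfl⟩)
  have h3 : (sg r : ι → F) = 0 := by
    apply T.hA
    · intro i
      simp [Pi.single_apply, (h1 i).symm, (h2 i).symm]
    · rw [T.hQ] at hr
      simpa [Pi.single_apply, (h1 _).symm, (h2 _).symm] using hr
  have h4 := congrFun h3 r
  simp at h4

/-! ### Monomial isometries -/

/-- The matrix of a monomial map. -/
def monM (σ : Equiv.Perm ι) (s : ι → F) : Matrix ι ι F := fun r c => if r = σ c then s c else 0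

theorem monM_mulVec (σ : Equiv.Perm ι) (s : ι → F) (v : ι → F) :
    monM σ s *ᵥ v = fun r => s (σ⁻¹ r) * v (σ⁻¹ r) := by
  funext r
  simp only [Matrix.mulVec, dotProduct, monM]
  rw [Finset.sum_eq_single (σ⁻¹ r)]
  · simp
  · intro b _ hb
    have : r ≠ σ b := by
      rintro rfl
      simp at hb
    simp [this]
  · simp

theorem monM_mul (σ τ : Equiv.Perm ι) (s t : ι → F) :
    monM σ s * monM τ t = monM (σ * τ) (fun c => s (τ c) * t c) := by
  ext r c
  rw [Matrix.mul_apply, Finset.sum_eq_single (τ c)]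
  · have h1 : monM τ t (τ c) c = t c := if_pos rfl
    rw [h1]
    show (if r = σ (τ c) then s (τ c) else 0) * t c = if r = σ (τ c) then s (τ c) * t c else 0
    by_cases h : r = σ (τ c)
    · rw [if_pos h, if_pos h]
    · rw [if_neg h, if_neg h, zero_mul]
  · intro b _ hb
    simp [monM, hb]
  · simp

theorem monM_one : monM (1 : Equiv.Perm ι) (fun _ => (1 : F)) = 1 := by
  ext r c
  rw [Matrix.one_apply]
  rfl

/-- The monomial isometry. -/
noncomputable def monO (σ : Equiv.Perm ι) (s : ι → F) (hs : ∀ r, s r ≠ 0)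
    (hq : ∀ v : ι → F, T.Q (fun r => s (σ⁻¹ r) * v (σ⁻¹ r)) = T.Q v) : ↥(Cfsg.isometryGroup F (⇑T.Q)) :=
  ⟨⟨monM σ s, monM σ⁻¹ (fun c => (s (σ⁻¹ c))⁻¹), by
      rw [monM_mul, mul_inv_cancel]
      have : (fun c => s (σ⁻¹ c) * (s (σ⁻¹ c))⁻¹) = fun _ => (1 : F) := by
        funext c
        exact mul_inv_cancel₀ (hs _)
      rw [this, monM_one], by
      rw [monM_mul, inv_mul_cancel]
      have : (fun c => (s (σ⁻¹ (σ c)))⁻¹ * s c) = fun _ => (1 : F) := by
        funext c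
        simp [hs c]
      rw [this, monM_one]⟩,
    (mem_isometryGroup_iff T.Q _).2 (fun x => by
      show T.Q (monM σ s *ᵥ x) = T.Q x
      rw [monM_mulVec σ s x]
      exact hq x)⟩


theorem monO_coe (σ : Equiv.Perm ι) (s : ι → F) (hs : ∀ r, s r ≠ 0)
    (hq : ∀ v : ι → F, T.Q (fun r => s (σ⁻¹ r) * v (σ⁻¹ r)) = T.Q v) :
    rhoO T.Q (T.monO σ s hs hq) = monM σ s := rfl

theorem monO_act (σ : Equiv.Perm ι) (s : ι → F) (hs : ∀ r, s r ≠ 0)
    (hq : ∀ v : ι → F, T.Q (fun r => s (σ⁻¹ r) * v (σ⁻¹ r)) = T.Q v) (c : ι) :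
    act (T.monO σ s hs hq) (sg c) = s c • sg (σ c) := by
  funext r
  rw [act_single, monO_coe]
  simp only [monM, Pi.smul_apply, smul_eq_mul, Pi.single_apply]
  by_cases h : r = σ c
  · rw [if_pos h, if_pos h, mul_one]
  · rw [if_neg h, if_neg h, mul_zero]

theorem monO_mon (σ : Equiv.Perm ι) (s : ι → F) (hs : ∀ r, s r ≠ 0)
    (hq : ∀ v : ι → F, T.Q (fun r => s (σ⁻¹ r) * v (σ⁻¹ r)) = T.Q v) :
    T.monO σ s hs hq ∈ NSub (rhoO T.Q) := by
  refine ⟨σ, fun r c => ?_⟩
  rw [monO_coe]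
  simp only [monM]
  by_cases h : r = σ c
  · simp [h, hs c]
  · simp [h]

/-- The scale function of a diagonal element. -/
noncomputable def dgS (k : Fin m) (c : F) : ι → F :=
  fun r => if r = T.E k then c else if r = T.E' k then c⁻¹ else 1

theorem dgS_E (k : Fin m) (c : F) : T.dgS k c (T.E k) = c := if_pos rfl
theorem dgS_E' (k : Fin m) (c : F) : T.dgS k c (T.E' k) = c⁻¹ := by
  rw [dgS, if_neg (T.hEE' k k).symm, if_pos rfl]
theorem dgS_E_ne {k i : Fin m} (h : i ≠ k) (c : F) : T.dgS k c (T.E i) = 1 := by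
  rw [dgS, if_neg (fun h1 => h (T.hE h1)), if_neg (T.hEE' i k)]
theorem dgS_E'_ne {k i : Fin m} (h : i ≠ k) (c : F) : T.dgS k c (T.E' i) = 1 := by
  rw [dgS, if_neg (T.hEE' k i).symm, if_neg (fun h1 => h (T.hE' h1))]

theorem R_congr_of (v v' : ι → F) (h : ∀ r, (∀ i, r ≠ T.E i) → (∀ i, r ≠ T.E' i) → v r = v' r) :
    T.R v = T.R v' := T.hR v v' h

/-- The diagonal isometry. -/
noncomputable def dgO (k : Fin m) (c : F) (hc : c ≠ 0) : ↥(Cfsg.isometryGroup F (⇑T.Q)) :=
  T.monO 1 (T.dgS k c) (fun r => by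
    unfold dgS
    split_ifs
    · exact hc
    · exact inv_ne_zero hc
    · exact one_ne_zero) (fun v => by
    rw [T.hQ, T.hQ v]
    congr 1
    · refine Finset.sum_congr rfl fun i _ => ?_
      simp only [inv_one, Equiv.Perm.one_apply]
      by_cases h : i = k
      · subst h
        rw [dgS_E, dgS_E']
        field_simp
      · rw [dgS_E_ne T h, dgS_E'_ne T h]
        ring
    · apply T.hR
      intro r h1 h2
      simp only [inv_one, Equiv.Perm.one_apply, dgS, if_neg (h1 k), if_neg (h2 k), one_mul])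

/-- The swap of the hyperbolic pair. -/
noncomputable def swO (k : Fin m) : ↥(Cfsg.isometryGroup F (⇑T.Q)) :=
  T.monO (Equiv.swap (T.E k) (T.E' k)) (fun _ => 1) (fun _ => one_ne_zero) (fun v => by
    rw [T.hQ, T.hQ v]
    congr 1
    · refine Finset.sum_congr rfl fun i _ => ?_
      simp only [Equiv.swap_inv, one_mul]
      by_cases h : i = k
      · subst h
        rw [Equiv.swap_apply_left, Equiv.swap_apply_right]
        ring
      · rw [Equiv.swap_apply_of_ne_of_ne (fun h1 => h (T.hE h1)) (T.hEE' i k),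
          Equiv.swap_apply_of_ne_of_ne (T.hEE' k i).symm (fun h1 => h (T.hE' h1))]
    · apply T.hR
      intro r h1 h2
      simp only [Equiv.swap_inv, one_mul]
      rw [Equiv.swap_apply_of_ne_of_ne (h1 k) (h2 k)])

/-- The permutation exchanging two hyperbolic pairs. -/
def spP (k j : Fin m) : Equiv.Perm ι := Equiv.swap (T.E k) (T.E j) * Equiv.swap (T.E' k) (T.E' j)

theorem spP_E (k j i : Fin m) : T.spP k j (T.E i) = T.E (Equiv.swap k j i) := by
  rw [spP, Equiv.Perm.mul_apply, Equiv.swap_apply_of_ne_of_ne (T.hEE' i k) (T.hEE' i j)]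
  exact (Function.Injective.swap_apply T.hE k j i)

theorem spP_E' (k j i : Fin m) : T.spP k j (T.E' i) = T.E' (Equiv.swap k j i) := by
  rw [spP, Equiv.Perm.mul_apply, Function.Injective.swap_apply T.hE' k j i,
    Equiv.swap_apply_of_ne_of_ne (T.hEE' k _).symm (T.hEE' j _).symm]

theorem spP_ne (k j : Fin m) {r : ι} (h1 : ∀ i, r ≠ T.E i) (h2 : ∀ i, r ≠ T.E' i) : T.spP k j r = r := by
  rw [spP, Equiv.Perm.mul_apply, Equiv.swap_apply_of_ne_of_ne (h2 k) (h2 j), Equiv.swap_apply_of_ne_of_ne (h1 k) (h1 j)]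

theorem spP_spP (k j : Fin m) (x : ι) : T.spP k j (T.spP k j x) = x := by
  by_cases h1 : ∃ i, x = T.E i
  · obtain ⟨i, rfl⟩ := h1
    rw [spP_E, spP_E, Equiv.swap_apply_self]
  · by_cases h2 : ∃ i, x = T.E' i
    · obtain ⟨i, rfl⟩ := h2
      rw [spP_E', spP_E', Equiv.swap_apply_self]
    · push Not at h1 h2
      rw [spP_ne T k j h1 h2, spP_ne T k j h1 h2]

theorem spP_inv (k j : Fin m) : (T.spP k j)⁻¹ = T.spP k j := by
  apply inv_eq_of_mul_eq_one_left
  ext x
  exact T.spP_spP k j x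

/-- The monomial isometry exchanging two hyperbolic pairs. -/
noncomputable def spO (k j : Fin m) : ↥(Cfsg.isometryGroup F (⇑T.Q)) :=
  T.monO (T.spP k j) (fun _ => 1) (fun _ => one_ne_zero) (fun v => by
    rw [T.hQ, T.hQ v]
    congr 1
    · rw [← Equiv.sum_comp (Equiv.swap k j)]
      refine Finset.sum_congr rfl fun i _ => ?_
      simp only [one_mul, spP_inv, spP_E, spP_E', Equiv.swap_apply_self]
    · apply T.hR
      intro r h1 h2
      simp only [spP_inv, one_mul]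
      rw [spP_ne T k j h1 h2])

/-! ### The frame hypotheses -/

theorem act_mon {n : ↥(Cfsg.isometryGroup F (⇑T.Q))} {π : Equiv.Perm ι} (h : IsMon (rhoO T.Q) n π) (a : ι) :
    act n (sg a) = rhoO T.Q n (π a) a • sg (π a) := by
  funext r
  rw [act_single]
  simp only [Pi.smul_apply, smul_eq_mul, Pi.single_apply]
  by_cases h1 : r = π a
  · rw [if_pos h1, mul_one, h1]
  · rw [if_neg h1, mul_zero]
    by_contra h2
    exact h1 ((h r a).1 h2)

theorem permFrame : PermFrame T.hf (NSub (rhoO T.Q)) := by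
  have key : ∀ n ∈ NSub (rhoO T.Q), ∀ a, T.Q (sg a) = 0 → ∃ c : F, ∃ z' ∈ frameSet T.hf, act n (sg a) = c • z' := by
    rintro n ⟨π, hπ⟩ a ha
    refine ⟨_, sg (π a), ?_, act_mon T hπ a⟩
    apply T.frame_of_Q
    have h1 := Q_act n (sg a)
    rw [act_mon T hπ a, Q_smul, ha] at h1
    have h2 : rhoO T.Q n (π a) a ≠ 0 := hπ.ne_zero a
    exact (mul_eq_zero.1 h1).resolve_left (mul_ne_zero h2 h2)
  rintro n hn _ (⟨i, rfl⟩ | ⟨i, rfl⟩)
  · exact key n hn _ (T.Q_E i)
  · exact key n hn _ (T.Q_E' i)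

theorem base_mem (g : ↥(Cfsg.isometryGroup F (⇑T.Q))) (hg : Fixes T.hf g m) : g ∈ NSub (rhoO T.Q) := by
  have hg' : ∀ i : Fin m, act g (sg (T.E i)) = sg (T.E i) ∧ act g (sg (T.E' i)) = sg (T.E' i) := fun i => hg i i.2
  refine ⟨1, fun r c => ?_⟩
  simp only [Equiv.Perm.one_apply]
  rw [← act_single]
  by_cases h1 : ∃ i, c = T.E i
  · obtain ⟨i, rfl⟩ := h1
    rw [(hg' i).1]
    simp [Pi.single_apply]
  by_cases h2 : ∃ i, c = T.E' i
  · obtain ⟨i, rfl⟩ := h2
    rw [(hg' i).2]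
    simp [Pi.single_apply]
  push Not at h1 h2
  have hv1 : ∀ i, act g (sg c) (T.E' i) = 0 := by
    intro i
    have h3 := polar_act g (sg (T.E i)) (sg c)
    rw [(hg' i).1, polar_E, polar_E] at h3
    rw [h3]
    simp [Pi.single_apply, (h2 i).symm]
  have hv2 : ∀ i, act g (sg c) (T.E i) = 0 := by
    intro i
    have h3 := polar_act g (sg (T.E' i)) (sg c)
    rw [(hg' i).2, polar_E', polar_E'] at h3
    rw [h3]
    simp [Pi.single_apply, (h1 i).symm]
  constructor
  · intro h3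
    by_contra h4
    apply h3
    by_cases h5 : ∃ i, r = T.E i
    · obtain ⟨i, rfl⟩ := h5
      exact hv2 i
    by_cases h6 : ∃ i, r = T.E' i
    · obtain ⟨i, rfl⟩ := h6
      exact hv1 i
    push Not at h5 h6
    exact absurd (T.hZ r c h5 h6 h1 h2) h4
  · rintro rfl h3
    have h4 : act g (sg r) = 0 := by
      funext k
      by_cases h5 : ∃ i, k = T.E i
      · obtain ⟨i, rfl⟩ := h5
        exact hv2 i
      by_cases h6 : ∃ i, k = T.E' i
      · obtain ⟨i, rfl⟩ := h6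
        exact hv1 i
      push Not at h5 h6
      rw [T.hZ k r h5 h6 h1 h2]
      exact h3
    have h5 := act_inv_act g (sg r)
    rw [h4, act_zero] at h5
    have h6 := congrFun h5 r
    simp at h6

theorem dg_mem (k : Fin m) (c : F) (hc : c ≠ 0) : ∃ n ∈ NSub (rhoO T.Q), Fixes T.hf n k ∧
    act n (T.hf.e k) = c • T.hf.e k ∧ act n (T.hf.f k) = c⁻¹ • T.hf.f k := by
  refine ⟨T.dgO k c hc, T.monO_mon _ _ _ _, ?_, ?_, ?_⟩
  · intro i hi
    have hne : i ≠ k := fun h => by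
      rw [h] at hi
      exact lt_irrefl _ hi
    constructor
    · rw [hf_e, dgO, monO_act, dgS_E_ne T hne, one_smul]
      rfl
    · rw [hf_f, dgO, monO_act, dgS_E'_ne T hne, one_smul]
      rfl
  · rw [hf_e, dgO, monO_act, dgS_E]
    rfl
  · rw [hf_f, dgO, monO_act, dgS_E']
    rfl

theorem sw_mem (k : Fin m) : ∃ n ∈ NSub (rhoO T.Q), Fixes T.hf n k ∧
    act n (T.hf.e k) = T.hf.f k ∧ act n (T.hf.f k) = T.hf.e k := by
  refine ⟨T.swO k, T.monO_mon _ _ _ _, ?_, ?_, ?_⟩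
  · intro i hi
    have hne : i ≠ k := fun h => by
      rw [h] at hi
      exact lt_irrefl _ hi
    constructor
    · rw [hf_e, swO, monO_act, one_smul, Equiv.swap_apply_of_ne_of_ne (fun h1 => hne (T.hE h1)) (T.hEE' i k)]
    · rw [hf_f, swO, monO_act, one_smul, Equiv.swap_apply_of_ne_of_ne (T.hEE' k i).symm (fun h1 => hne (T.hE' h1))]
  · rw [hf_e, swO, monO_act, one_smul, Equiv.swap_apply_left]
    rfl
  · rw [hf_f, swO, monO_act, one_smul, Equiv.swap_apply_right]
    rfl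

theorem sp_mem (k j : Fin m) (hkj : k < j) : ∃ n ∈ NSub (rhoO T.Q), Fixes T.hf n k ∧
    act n (T.hf.e j) = T.hf.e k ∧ act n (T.hf.f j) = T.hf.f k := by
  refine ⟨T.spO k j, T.monO_mon _ _ _ _, ?_, ?_, ?_⟩
  · intro i hi
    have hne : i ≠ k := fun h => by
      rw [h] at hi
      exact lt_irrefl _ hi
    have hne' : i ≠ j := fun h => by
      rw [h] at hi
      exact lt_asymm hi hkj
    constructor
    · rw [hf_e, spO, monO_act, one_smul, spP_E, Equiv.swap_apply_of_ne_of_ne hne hne']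
    · rw [hf_f, spO, monO_act, one_smul, spP_E', Equiv.swap_apply_of_ne_of_ne hne hne']
  · rw [hf_e, spO, monO_act, one_smul, spP_E, Equiv.swap_apply_right]
    rfl
  · rw [hf_f, spO, monO_act, one_smul, spP_E', Equiv.swap_apply_right]
    rfl

/-- The generation theorem in coordinates. -/
theorem omega_le : commutator ↥(Cfsg.isometryGroup F (⇑T.Q)) ≤
    rootG T.hf ⊔ (NSub (rhoO T.Q) ⊓ commutator ↥(Cfsg.isometryGroup F (⇑T.Q))) :=
  commutator_le T.hf _ T.permFrame T.dg_mem T.sw_mem T.sp_mem T.base_mem T.hW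

/-! ### The unitriangular Eichler transformations -/

section UT

variable {ord : ι → ℕ} {k₀ : Fin m} (hmin : ∀ r, ord (T.E k₀) ≤ ord r) (hmax : ∀ r, ord r ≤ ord (T.E' k₀))

include hmin hmax in
theorem eichler_isUT {b : ι → F} (hb : 𝔣 (sg (T.E k₀)) b = 0) :
    IsUT (rhoO T.Q) ord (eichlerIso (T.Q_E k₀) hb) := by
  have hb0 : b (T.E' k₀) = 0 := by rwa [polar_E] at hb
  have hform : ∀ r c, rhoO T.Q (eichlerIso (T.Q_E k₀) hb) r c =
      (sg c : ι → F) r + (if c = T.E' k₀ then 1 else 0) * b r - 𝔣 b (sg c) * (sg (T.E k₀) : ι → F) r -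
        (Q₀ b * if c = T.E' k₀ then 1 else 0) * (sg (T.E k₀) : ι → F) r := by
    intro r c
    rw [← act_single, act_eichlerIso, polar_E]
    have : (sg c : ι → F) (T.E' k₀) = if c = T.E' k₀ then 1 else 0 := by
      simp [Pi.single_apply, eq_comm]
    rw [this]
    simp only [Pi.sub_apply, Pi.add_apply, Pi.smul_apply, smul_eq_mul]
  constructor
  · intro r c hrc
    have h1 : r ≠ c := by
      rintro rfl
      exact lt_irrefl _ hrc
    have h2 : c ≠ T.E' k₀ := by
      rintro rfl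
      exact absurd hrc (not_lt.2 (hmax r))
    have h3 : r ≠ T.E k₀ := by
      rintro rfl
      exact absurd hrc (not_lt.2 (hmin c))
    rw [hform, if_neg h2]
    simp [Pi.single_apply, h1, h3]
  · intro r
    rw [hform]
    by_cases h1 : r = T.E' k₀
    · subst h1
      simp [hb0, Pi.single_apply, (T.hEE' k₀ k₀).symm]
    · rw [if_neg h1]
      by_cases h2 : r = T.E k₀
      · subst h2
        rw [polar_comm, hb]
        simp
      · simp [Pi.single_apply, h2]

end UT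

section GenSup

variable [Finite ↥(Cfsg.Omega F (⇑T.Q))] {ord : ι → ℕ} (hord : Function.Injective ord) {k₀ : Fin m}
  (hmin : ∀ r, ord (T.E k₀) ≤ ord r) (hmax : ∀ r, ord r ≤ ord (T.E' k₀))

include hmin hmax in
/-- `Ω = ⟨U, H, N⟩`. -/
theorem gen_sup
    (hΩ : ∀ (b : ι → F) (hb : 𝔣 (sg (T.E k₀)) b = 0), eichlerIso (T.Q_E k₀) hb ∈ Cfsg.Omega F (⇑T.Q))
    (htrans : ∀ a, T.Q (sg a) = 0 → ∃ n : ↥(Cfsg.Omega F (⇑T.Q)), ∃ π, IsMon (rhoG T.Q) n π ∧ π a = T.E k₀) :
    (USub (rhoG T.Q) hord ⊔ HSub (rhoG T.Q)) ⊔ NSub (rhoG T.Q) = ⊤ := by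
  set M := (USub (rhoG T.Q) hord ⊔ HSub (rhoG T.Q)) ⊔ NSub (rhoG T.Q) with hM
  set M' := M.map (Cfsg.Omega F (⇑T.Q)).subtype with hM'
  have h1 : rootG T.hf ≤ M' := by
    rw [rootG, Subgroup.closure_le]
    rintro _ ⟨z, hz, hz0, b, hb, rfl⟩
    have hza : ∃ a, z = sg a := by
      rcases hz with ⟨i, rfl⟩ | ⟨i, rfl⟩
      · exact ⟨_, rfl⟩
      · exact ⟨_, rfl⟩
    obtain ⟨a, rfl⟩ := hza
    obtain ⟨n, π, hπ, hπa⟩ := htrans a hz0
    have hπ' : IsMon (rhoO T.Q) n.1 π := hπ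
    have hact := T.act_mon hπ' a
    rw [hπa] at hact
    set c := rhoO T.Q n.1 (T.E k₀) a with hc
    have hb' : 𝔣 (sg (T.E k₀)) (c • act n.1 b) = 0 := by
      rw [polar_smul_right', ← polar_smul_left', ← hact, polar_act, hb]
    have hconj := conj_eichlerIso n.1 hz0 hb
    have h3 : eichlerIso (z := act n.1 (sg a)) (by rwa [Q_act]) (by rwa [polar_act] : polar (⇑T.Q) (act n.1 (sg a)) (act n.1 b) = 0)
        = eichlerIso (z := c • sg (T.E k₀)) (by rw [← hact, Q_act]; exact hz0)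
          (by rw [← hact, polar_act]; exact hb : polar (⇑T.Q) (c • sg (T.E k₀)) (act n.1 b) = 0) := by
      congr 1
    rw [h3, eichlerIso_smul c (T.Q_E k₀) _ _ hb'] at hconj
    let g : ↥(Cfsg.Omega F (⇑T.Q)) := ⟨_, hΩ _ hb'⟩
    have hgU : g ∈ USub (rhoG T.Q) hord := T.eichler_isUT hmin hmax hb'
    refine ⟨n⁻¹ * g * n, ?_, ?_⟩
    · have hnN : n ∈ M := Subgroup.mem_sup_right ⟨π, hπ⟩
      exact M.mul_mem (M.mul_mem (M.inv_mem hnN) (Subgroup.mem_sup_left (Subgroup.mem_sup_left hgU))) hnN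
    · show n.1⁻¹ * g.1 * n.1 = _
      show n.1⁻¹ * eichlerIso (T.Q_E k₀) hb' * n.1 = _
      rw [← hconj]
      group
  have h2 : NSub (rhoO T.Q) ⊓ commutator ↥(Cfsg.isometryGroup F (⇑T.Q)) ≤ M' := by
    rintro g ⟨⟨π, hπ⟩, hg⟩
    exact ⟨⟨g, hg⟩, Subgroup.mem_sup_right ⟨π, hπ⟩, rfl⟩
  rw [eq_top_iff]
  intro g _
  have h3 : g.1 ∈ M' := sup_le h1 h2 (T.omega_le g.2)
  obtain ⟨g', hg', e⟩ := h3
  have : g' = g := Subtype.ext e
  rwa [← this]

end GenSup

end Fr

end Cfsg.Agent.Lib.StOm.Coord
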