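import Mathlib
import Cfsg.Agent.Lib.StOm.Coord
import Cfsg.Agent.Lib.StOm.Block

/-!
Root data of orthogonal groups in coordinates.
-/

set_option autoImplicit false
set_option linter.unusedSectionVars false
set_option linter.unusedSimpArgs false
set_option linter.unusedVariables false

namespace Cfsg.Agent.Lib.StOm.Root

open Matrix QuadraticMap Module
open Cfsg.Agent.Lib.PSL2.Basic
open Cfsg.Agent.Lib.Classical.Orth.Basic
open Cfsg.Agent.Lib.Classical.Orth.Siegel
open Cfsg.Agent.Lib.StGen.Mono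
open Cfsg.Agent.Lib.StGen.Chain (add_of_adj)
open Cfsg.Agent.Lib.StOm.Coord Cfsg.Agent.Lib.StOm.Block Cfsg.Agent.Lib.StOm.Builder
open scoped MatrixGroups

variable {ι : Type} [Fintype ι] [DecidableEq ι] {F : Type*} [Field F] {m : ℕ}

/-- The involution on the coordinates and the order. -/
structure Od (T : Fr ι F m) where
  st : ι → ι
  δ : ι → F
  ord : ι → ℕ
  K : ℕ
  st_st : ∀ r, st (st r) = r
  hδ : ∀ r, δ r ≠ 0
  hδ1 : ∀ r, st r ≠ r → δ r = 1
  hQs : ∀ r, st r ≠ r → T.Q (sg r) = 0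
  hpol : ∀ r x, polar (⇑T.Q) (sg r) x = δ r * x (st r)
  hord : Function.Injective ord
  ord_st : ∀ r, ord (st r) + ord r = K

variable {T : Fr ι F m} (O : Od T)

namespace Od

theorem δ_st (r : ι) : O.δ (O.st r) = O.δ r := by
  have h1 := O.hpol r (sg (O.st r))
  have h2 := O.hpol (O.st r) (sg r)
  rw [polar_comm, h2, O.st_st] at h1
  simpa [Pi.single_apply] using h1

theorem form (g : ↥(Cfsg.isometryGroup F (⇑T.Q))) (r c : ι) :
    O.δ r * rhoO T.Q g (O.st r) c = O.δ c * rhoO T.Q g⁻¹ (O.st c) r := by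
  have h1 := O.hpol r (act g (sg c))
  have h2 := O.hpol c (act g⁻¹ (sg r))
  rw [act_single] at h1 h2
  rw [← h1, ← h2, polar_comm (⇑T.Q) (sg c)]
  have h3 := polar_act g (act g⁻¹ (sg r)) (sg c)
  rw [act_act_inv] at h3
  exact h3

theorem mon_swap {n : ↥(Cfsg.isometryGroup F (⇑T.Q))} {π : Equiv.Perm ι} (hn : IsMon (rhoO T.Q) n π) (c : ι) :
    π (O.st c) = O.st (π c) := by
  have h1 := O.form n (O.st (π c)) c
  rw [O.st_st] at h1
  have h2 : O.δ (O.st (π c)) * rhoO T.Q n (π c) c ≠ 0 := mul_ne_zero (O.hδ _) (hn.ne_zero c)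
  rw [h1] at h2
  have h3 : rhoO T.Q n⁻¹ (O.st c) (O.st (π c)) ≠ 0 := right_ne_zero_of_mul h2
  have h4 := (hn.inv (O.st c) (O.st (π c))).1 h3
  rw [h4]
  simp

/-! ### Diagonal elements -/

set_option quotPrecheck false in
local notation "GG" => ↥(Cfsg.Omega F (⇑T.Q))

theorem diag_conj {h : GG} (hh : IsMon (rhoG T.Q) h 1) (u : GG) (r c : ι) :
    rhoG T.Q (h * u * h⁻¹) r c = rhoG T.Q h r r * rhoG T.Q u r c * (rhoG T.Q h c c)⁻¹ := by
  have h1 := hh.conj_apply' (u := u) r c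
  simp only [inv_one, Equiv.Perm.one_apply] at h1
  have h2 := hh.diag_mul c c
  simp only [inv_one, Equiv.Perm.one_apply, if_true] at h2
  have h3 : rhoG T.Q h⁻¹ c c = (rhoG T.Q h c c)⁻¹ := eq_inv_of_mul_eq_one_right h2
  rw [h3] at h1
  exact h1

theorem diag_ne {h : GG} (hh : IsMon (rhoG T.Q) h 1) (r : ι) : rhoG T.Q h r r ≠ 0 := (hh r r).2 rfl

theorem diag_off {h : GG} (hh : IsMon (rhoG T.Q) h 1) {r c : ι} (hrc : r ≠ c) : rhoG T.Q h r c = 0 := by
  by_contra h1
  exact hrc ((hh r c).1 h1)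

theorem diag_inv {h : GG} (hh : IsMon (rhoG T.Q) h 1) (r : ι) :
    rhoG T.Q h (O.st r) (O.st r) = (rhoG T.Q h r r)⁻¹ := by
  have h1 := O.form h.1 r (O.st r)
  rw [O.st_st, O.δ_st] at h1
  have h2 := mul_left_cancel₀ (O.hδ r) h1
  have h3 := hh.diag_mul r r
  simp only [inv_one, Equiv.Perm.one_apply, if_true] at h3
  have h4 : rhoG T.Q h⁻¹ r r = (rhoG T.Q h r r)⁻¹ := eq_inv_of_mul_eq_one_right h3
  rw [← h4]
  exact h2

/-! ### Lifting to `Ω` -/

/-- The homomorphism to matrices. -/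
noncomputable def phiM {a b a' b' : ι} (H : Blk a b a' b') : SL(2, F) →* Matrix ι ι F where
  toFun z := (phi H z).1
  map_one' := by simp
  map_mul' z z' := by simp

section Lift

variable (f : SL(2, F) →* Matrix ι ι F) (hx : ∀ t : F, ∃ g : ↥(Cfsg.Omega F (⇑T.Q)), rhoG T.Q g = f (x t))
  (hy : ∀ t : F, ∃ g : ↥(Cfsg.Omega F (⇑T.Q)), rhoG T.Q g = f (y t))

include hx hy in
theorem exists_lift (z : SL(2, F)) : ∃ g : GG, rhoG T.Q g = f z := by
  let P : Subgroup SL(2, F) :=
    { carrier := {z | ∃ g : GG, rhoG T.Q g = f z}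
      mul_mem' := by
        rintro a b ⟨g, hg⟩ ⟨g', hg'⟩
        exact ⟨g * g', by rw [map_mul, map_mul, hg, hg']⟩
      one_mem' := ⟨1, by simp⟩
      inv_mem' := by
        rintro a ⟨g, hg⟩
        refine ⟨g⁻¹, ?_⟩
        have h1 : rhoG T.Q g⁻¹ * f a = 1 := by rw [← hg, ← map_mul, inv_mul_cancel, map_one]
        have h2 : f a * f a⁻¹ = 1 := by rw [← map_mul, mul_inv_cancel, map_one]
        exact left_inv_eq_right_inv h1 h2 }
  exact sl2_closure P hx hy z

/-- The lift of a homomorphism to `Ω`. -/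
noncomputable def lift : SL(2, F) →* GG where
  toFun z := (exists_lift f hx hy z).choose
  map_one' := by
    apply rhoG_inj
    rw [(exists_lift f hx hy 1).choose_spec]
    simp
  map_mul' a b := by
    apply rhoG_inj
    refine (exists_lift f hx hy (a * b)).choose_spec.trans ?_
    rw [map_mul, map_mul, (exists_lift f hx hy a).choose_spec, (exists_lift f hx hy b).choose_spec]

theorem lift_spec (z : SL(2, F)) : rhoG T.Q (lift f hx hy z) = f z := (exists_lift f hx hy z).choose_spec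

end Lift

/-! ### The Eichler transformations as root elements -/

theorem polar_sg {r c : ι} (hr : O.st r ≠ r) : polar (⇑T.Q) (sg r) (sg c) = if c = O.st r then 1 else 0 := by
  rw [O.hpol, O.hδ1 r hr, one_mul]
  simp [Pi.single_apply, eq_comm]

theorem polar_smul_sg {r : ι} (hr : O.st r ≠ r) (t : F) (x : ι → F) : polar (⇑T.Q) (t • sg r) x = t * x (O.st r) := by
  rw [polar_smul_left', O.hpol, O.hδ1 r hr, one_mul]

theorem eichler_entry {z : ι} (hz : O.st z ≠ z) {r₀ : ι} (h0 : O.st r₀ ≠ r₀) (t : F) (r c : ι) :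
    eichlerMatrix T.Q (sg z) (t • sg r₀) r c =
      (if r = c then 1 else 0) + (if c = O.st z then t else 0) * (if r = r₀ then 1 else 0)
        - (if c = O.st r₀ then t else 0) * (if r = z then 1 else 0) := by
  have h1 := congrFun (eichlerMatrix_mulVec T.Q (sg z) (t • sg r₀) (sg c)) r
  rw [Matrix.mulVec_single_one] at h1
  have h2 : eichlerMatrix T.Q (sg z) (t • sg r₀) r c = (eichlerMatrix T.Q (sg z) (t • sg r₀)).col c r := rfl
  rw [h2, h1, polar_sg O hz, polar_smul_sg O h0, Q_smul, O.hQs _ h0]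
  have e1 : (sg c : ι → F) (O.st r₀) = if c = O.st r₀ then 1 else 0 := by
    simp [Pi.single_apply, eq_comm]
  rw [e1]
  simp only [Pi.sub_apply, Pi.add_apply, Pi.smul_apply, smul_eq_mul, Pi.single_apply, mul_zero, zero_mul, sub_zero]
  split_ifs <;> ring

theorem ite_x {a b a' b' : ι} (H : Blk a b a' b') (t : F) (r c : ι) :
    (if r = c then (1 : F) else if r = a ∧ c = b then t else if r = b' ∧ c = a' then -t else 0) =
      (if r = c then 1 else 0) + (if c = a' then -t else 0) * (if r = b' then 1 else 0)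
        - (if c = b then -t else 0) * (if r = a then 1 else 0) := by
  obtain ⟨h1, h2, h3, h4, h5, h6⟩ := H
  by_cases h7 : r = c
  · subst h7
    have h8 : ¬ (r = a' ∧ r = b') := fun h => h2 (h.1.symm.trans h.2)
    have h9 : ¬ (r = b ∧ r = a) := fun h => h1 (h.2.symm.trans h.1)
    by_cases h10 : r = a'
    · rw [if_pos rfl, if_pos rfl, if_pos h10]
      have h11 : r ≠ b' := fun h => h8 ⟨h10, h⟩
      rw [if_neg h11, mul_zero]
      by_cases h12 : r = b
      · exact absurd (h12.symm.trans h10) h5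
      · rw [if_neg h12, zero_mul]
        ring
    · rw [if_pos rfl, if_pos rfl, if_neg h10, zero_mul]
      by_cases h12 : r = b
      · have h13 : r ≠ a := fun h => h9 ⟨h12, h⟩
        rw [if_neg h13, mul_zero]
        ring
      · rw [if_neg h12, zero_mul]
        ring
  · rw [if_neg h7, if_neg h7, zero_add]
    by_cases h8 : r = a ∧ c = b
    · obtain ⟨rfl, rfl⟩ := h8
      have h10 : c ≠ a' := h5
      have h11 : r ≠ b' := h4
      simp [h10, h11]
    · rw [if_neg h8]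
      by_cases h9 : r = b' ∧ c = a'
      · obtain ⟨rfl, rfl⟩ := h9
        have h10 : c ≠ b := fun h => h5 h.symm
        simp [h10]
      · rw [if_neg h9]
        by_cases h10 : c = a' <;> by_cases h11 : r = b' <;> by_cases h12 : c = b <;> by_cases h13 : r = a <;>
          simp_all

theorem ite_y {a b a' b' : ι} (H : Blk a b a' b') (t : F) (r c : ι) :
    (if r = c then (1 : F) else if r = b ∧ c = a then t else if r = a' ∧ c = b' then -t else 0) =
      (if r = c then 1 else 0) + (if c = b' then -t else 0) * (if r = a' then 1 else 0)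
        - (if c = a then -t else 0) * (if r = b then 1 else 0) :=
  ite_x (a := b) (b := a) (a' := b') (b' := a') ⟨H.hab.symm, H.hab'.symm, H.bb, H.ba, H.ab, H.aa⟩ t r c

variable {a b : ι} (H : Blk a b (O.st a) (O.st b)) (ha : O.st a ≠ a) (hb : O.st b ≠ b)

include H ha hb in
theorem phi_x_eq (t : F) : (phi H (x t)).1 = eichlerMatrix T.Q (sg a) ((-t) • sg (O.st b)) := by
  have h0 : O.st (O.st b) ≠ O.st b := fun h => hb ((O.st_st b).symm.trans h).symm
  ext r c
  rw [phi_x, eichler_entry O ha h0, O.st_st]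
  exact ite_x H t r c

include H ha hb in
theorem phi_y_eq (t : F) : (phi H (y t)).1 = eichlerMatrix T.Q (sg b) ((-t) • sg (O.st a)) := by
  have h0 : O.st (O.st a) ≠ O.st a := fun h => ha ((O.st_st a).symm.trans h).symm
  ext r c
  rw [phi_y, eichler_entry O hb h0, O.st_st]
  exact ite_y H t r c

/-! ### Root data -/

section Data

variable [Finite ↥(Cfsg.Omega F (⇑T.Q))]

/-- The root data attached to a pair of coordinates. -/
noncomputable def dData (φ : SL(2, F) →* ↥(Cfsg.Omega F (⇑T.Q))) (hφ : ∀ z, rhoG T.Q (φ z) = (phi H z).1)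
    (hlt : O.ord a < O.ord b)
    (hadd : ∀ u v, IsUT (rhoG T.Q) O.ord u → IsUT (rhoG T.Q) O.ord v →
      rhoG T.Q (u * v) a b = rhoG T.Q u a b + rhoG T.Q v a b)
    (hvan : ∀ u, IsUT (rhoG T.Q) O.ord u → rhoG T.Q u a b = 0 → ∀ r c, O.ord r < O.ord c →
      O.ord (pp a b (O.st a) (O.st b) c) < O.ord (pp a b (O.st a) (O.st b) r) → rhoG T.Q u r c = 0) :
    RootData (rhoG T.Q) (ord := O.ord) where
  φ := φ
  π := pp a b (O.st a) (O.st b)
  a := a
  b := b
  a₂ := a
  b₂ := b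
  hab := hlt
  hab₂ := hlt
  rev := by
    have h1 : (pp a b (O.st a) (O.st b))⁻¹ b = a := by
      rw [Equiv.Perm.inv_eq_iff_eq, pp_a H]
    have h2 : (pp a b (O.st a) (O.st b))⁻¹ a = b := by
      rw [Equiv.Perm.inv_eq_iff_eq, pp_b H]
    rw [h1, h2]
    exact hlt
  Sx r c := (r = a ∧ c = b) ∨ (r = O.st b ∧ c = O.st a)
  Sx_ab := Or.inl ⟨rfl, rfl⟩
  Sx_ord := by
    rintro r c (⟨rfl, rfl⟩ | ⟨rfl, rfl⟩)
    · exact hlt
    · have h1 := O.ord_st a
      have h2 := O.ord_st b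
      omega
  mon_w := by
    intro r c
    rw [hφ]
    exact phi_w H r c
  π_a := pp_a H
  π_b := pp_b H
  d_mem := by
    intro t ht r c
    rw [hφ]
    exact phi_d H t ht r c
  x_diag := by
    intro t r
    rw [hφ, phi_x, if_pos rfl]
  y_diag := by
    intro t r
    rw [hφ, phi_y, if_pos rfl]
  x_supp := by
    intro t r c hrc h
    rw [hφ, phi_x, if_neg hrc] at h
    by_cases h1 : r = a ∧ c = b
    · exact Or.inl h1
    · rw [if_neg h1] at h
      by_cases h2 : r = O.st b ∧ c = O.st a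
      · exact Or.inr h2
      · rw [if_neg h2] at h
        exact absurd rfl h
  y_supp := by
    intro t r c hrc h
    rw [hφ, phi_y, if_neg hrc] at h
    by_cases h1 : r = b ∧ c = a
    · exact Or.inl ⟨h1.2, h1.1⟩
    · rw [if_neg h1] at h
      by_cases h2 : r = O.st a ∧ c = O.st b
      · exact Or.inr ⟨h2.2, h2.1⟩
      · rw [if_neg h2] at h
        exact absurd rfl h
  x_ab := by
    intro t
    rw [hφ, phi_x, if_neg H.hab, if_pos ⟨rfl, rfl⟩]
  y_ba := by
    rw [hφ, phi_y, if_neg H.hab.symm, if_pos ⟨rfl, rfl⟩]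
    exact one_ne_zero
  add := hadd
  van := hvan
  H_norm := by
    intro h hh t
    refine ⟨rhoG T.Q h a a * t * (rhoG T.Q h b b)⁻¹, ?_⟩
    apply rhoG_inj
    ext r c
    rw [diag_conj hh, hφ, hφ, phi_x, phi_x]
    by_cases h1 : r = c
    · subst h1
      rw [if_pos rfl, if_pos rfl, mul_one]
      exact mul_inv_cancel₀ (diag_ne hh r)
    · rw [if_neg h1, if_neg h1]
      by_cases h2 : r = a ∧ c = b
      · obtain ⟨rfl, rfl⟩ := h2
        rw [if_pos ⟨rfl, rfl⟩, if_pos ⟨rfl, rfl⟩]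
      · rw [if_neg h2, if_neg h2]
        by_cases h3 : r = O.st b ∧ c = O.st a
        · obtain ⟨rfl, rfl⟩ := h3
          rw [if_pos ⟨rfl, rfl⟩, if_pos ⟨rfl, rfl⟩, diag_inv O hh, diag_inv O hh]
          have h4 := diag_ne hh a
          have h5 := diag_ne hh b
          field_simp
        · rw [if_neg h3, if_neg h3]
          simp
  dich := by
    intro n π' hn
    have hs : ∀ r, π'⁻¹ (O.st r) = O.st (π'⁻¹ r) := O.mon_swap (n := n.1⁻¹) hn.inv
    have h5 : O.ord (π'⁻¹ a) ≠ O.ord (π'⁻¹ b) := fun h => H.hab (π'⁻¹.injective (O.hord h))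
    have h1 := O.ord_st (π'⁻¹ a)
    have h2 := O.ord_st (π'⁻¹ b)
    rcases lt_or_gt_of_ne h5 with h6 | h6
    · left
      rintro r c (⟨rfl, rfl⟩ | ⟨rfl, rfl⟩)
      · exact h6
      · rw [hs, hs]
        omega
    · right
      rintro r c (⟨rfl, rfl⟩ | ⟨rfl, rfl⟩)
      · exact h6
      · rw [hs, hs]
        omega

include H ha hb in
/-- Mirrored entries of a unitriangular element at adjacent positions. -/
theorem mirror_adj (hab : O.ord b = O.ord a + 1) {u : ↥(Cfsg.Omega F (⇑T.Q))} (hu : IsUT (rhoG T.Q) O.ord u) :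
    rhoG T.Q u (O.st b) (O.st a) = - rhoG T.Q u a b := by
  have h1 := O.form u.1 b (O.st a)
  rw [O.st_st, O.δ_st, O.hδ1 b hb, O.hδ1 a ha, one_mul, one_mul] at h1
  have hu' : u⁻¹ ∈ USub (rhoG T.Q) O.hord := (USub (rhoG T.Q) O.hord).inv_mem hu
  have h2 := add_of_adj O.hord hab hu hu'
  rw [mul_inv_cancel, map_one, Matrix.one_apply_ne H.hab] at h2
  have h3 : rhoG T.Q u⁻¹ a b = rhoO T.Q u.1⁻¹ a b := rfl
  have h4 : rhoG T.Q u (O.st b) (O.st a) = rhoO T.Q u.1 (O.st b) (O.st a) := rfl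
  rw [h4, h1, ← h3]
  linear_combination (-1 : F) * h2

include H in
theorem inv_adj (hab : O.ord b = O.ord a + 1) {r c : ι} (h1 : O.ord r < O.ord c)
    (h2 : O.ord (pp a b (O.st a) (O.st b) c) < O.ord (pp a b (O.st a) (O.st b) r)) :
    (r = a ∧ c = b) ∨ (r = O.st b ∧ c = O.st a) := by
  have hk : ∀ x : ι, (x = a ∧ O.ord (pp a b (O.st a) (O.st b) x) = O.ord b) ∨
      (x = b ∧ O.ord (pp a b (O.st a) (O.st b) x) = O.ord a) ∨
      (x = O.st a ∧ O.ord (pp a b (O.st a) (O.st b) x) = O.ord (O.st b)) ∨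
      (x = O.st b ∧ O.ord (pp a b (O.st a) (O.st b) x) = O.ord (O.st a)) ∨
      (O.ord (pp a b (O.st a) (O.st b) x) = O.ord x) := by
    intro x
    by_cases h3 : x = a
    · subst h3
      exact Or.inl ⟨rfl, by rw [pp_a H]⟩
    by_cases h4 : x = b
    · subst h4
      exact Or.inr (Or.inl ⟨rfl, by rw [pp_b H]⟩)
    by_cases h5 : x = O.st a
    · subst h5
      exact Or.inr (Or.inr (Or.inl ⟨rfl, by rw [pp_a' H]⟩))
    by_cases h6 : x = O.st b
    · subst h6
      exact Or.inr (Or.inr (Or.inr (Or.inl ⟨rfl, by rw [pp_b' H]⟩)))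
    exact Or.inr (Or.inr (Or.inr (Or.inr (by rw [pp_ne h3 h4 h5 h6]))))
  have e1 := O.ord_st a
  have e2 := O.ord_st b
  have n1 : O.ord (O.st a) ≠ O.ord a := fun h => H.aa (O.hord h).symm
  have n2 : O.ord (O.st a) ≠ O.ord b := fun h => H.ba (O.hord h).symm
  have n3 : O.ord (O.st b) ≠ O.ord a := fun h => H.ab (O.hord h).symm
  have n4 : O.ord (O.st b) ≠ O.ord b := fun h => H.bb (O.hord h).symm
  rcases hk r with ⟨h3, h3'⟩ | ⟨h3, h3'⟩ | ⟨h3, h3'⟩ | ⟨h3, h3'⟩ | h3' <;>
    rcases hk c with ⟨h4, h4'⟩ | ⟨h4, h4'⟩ | ⟨h4, h4'⟩ | ⟨h4, h4'⟩ | h4' <;>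
    first
    | exact Or.inl ⟨h3, h4⟩
    | exact Or.inr ⟨h3, h4⟩
    | (exfalso; subst_vars; omega)

/-- The root data for adjacent positions. -/
noncomputable def adjData (φ : SL(2, F) →* ↥(Cfsg.Omega F (⇑T.Q))) (hφ : ∀ z, rhoG T.Q (φ z) = (phi H z).1)
    (hadj : O.ord b = O.ord a + 1) : RootData (rhoG T.Q) (ord := O.ord) :=
  dData O H ha hb φ hφ (by omega) (fun u v hu hv => add_of_adj O.hord hadj hu hv) (by
    intro u hu h0 r c h1 h2
    rcases inv_adj O H hadj h1 h2 with ⟨rfl, rfl⟩ | ⟨rfl, rfl⟩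
    · exact h0
    · rw [mirror_adj O H ha hb hadj hu, h0, neg_zero])

end Data

end Od

end Cfsg.Agent.Lib.StOm.Root
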