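import Mathlib
import Cfsg.Agent.Lib.StOm.Root

/-!
The Eichler transformations at frame vectors lie in `Ω`.
-/

set_option autoImplicit false
set_option linter.unusedSectionVars false
set_option linter.unusedSimpArgs false
set_option linter.unusedVariables false

namespace Cfsg.Agent.Lib.StOm.Om

open Matrix QuadraticMap Module
open Cfsg.Agent.Lib.PSL2.Basic
open Cfsg.Agent.Lib.Classical.Orth.Basic
open Cfsg.Agent.Lib.Classical.Orth.Siegel
open Cfsg.Agent.Lib.StGen.Mono
open Cfsg.Agent.Lib.StOm.Gen Cfsg.Agent.Lib.StOm.Coord Cfsg.Agent.Lib.StOm.Block Cfsg.Agent.Lib.StOm.Builder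
open Cfsg.Agent.Lib.StOm.Root
open scoped MatrixGroups commutatorElement

variable {ι : Type} [Fintype ι] [DecidableEq ι] {F : Type*} [Field F] {m : ℕ}
variable {Q : QuadraticForm F (ι → F)}

theorem eichlerIso_congr {z z' b b' : ι → F} (h1 : z = z') (h2 : b = b') (hz : Q z = 0) (hb : polar (⇑Q) z b = 0)
    (hz' : Q z' = 0) (hb' : polar (⇑Q) z' b' = 0) : eichlerIso hz hb = eichlerIso hz' hb' := by
  subst h1 h2
  rfl

/-- Adding a multiple of the singular vector does not change an Eichler transformation. -/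
theorem eichlerIso_add_self {z b : ι → F} (s : F) (hz : Q z = 0) (hb : polar (⇑Q) z b = 0)
    (hb' : polar (⇑Q) z (b + s • z) = 0) : eichlerIso hz hb' = eichlerIso hz hb := by
  have hzz : polar (⇑Q) z z = 0 := by rw [polar_self_eq, hz, mul_zero]
  apply ext_act
  intro x
  rw [act_eichlerIso, act_eichlerIso, Q_add, Q_smul, hz, polar_add_left, polar_smul_left', polar_smul_right',
    polar_comm (⇑Q) b z, hb]
  ext k
  simp only [Pi.add_apply, Pi.sub_apply, Pi.smul_apply, smul_eq_mul]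
  ring

section FrS

variable (T : Fr ι F m)

open Cfsg.Agent.Lib.StOm.Coord.Fr

theorem dgO_act (k : Fin m) (c : F) (hc : c ≠ 0) (x : ι → F) :
    act (T.dgO k c hc) x = fun r => T.dgS k c r * x r := by
  show monM 1 (T.dgS k c) *ᵥ x = _
  rw [monM_mulVec]
  rfl

/-- A nontrivial scalar gives all Eichler transformations at `E k` as commutators. -/
theorem eichler_mem_scalar (k : Fin m) {c : F} (hc0 : c ≠ 0) (hc1 : c ≠ 1) (B : ι → F)
    (hB : polar (⇑T.Q) (sg (T.E k)) B = 0) : eichlerIso (T.Q_E k) hB ∈ Cfsg.Omega F (⇑T.Q) := by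
  have hB0 : B (T.E' k) = 0 := by rwa [T.polar_E] at hB
  set y : ι → F := (c - 1)⁻¹ • (B + (-(B (T.E k))) • sg (T.E k)) with hy
  have hc1' : c - 1 ≠ 0 := sub_ne_zero.2 hc1
  have hyE : y (T.E k) = 0 := by
    simp [hy]
  have hyE' : y (T.E' k) = 0 := by
    have : (sg (T.E k) : ι → F) (T.E' k) = 0 := by
      simp [Pi.single_apply, (T.hEE' k k).symm]
    simp [hy, hB0, this]
  have hy0 : polar (⇑T.Q) (sg (T.E k)) y = 0 := by
    rw [T.polar_E]
    exact hyE'
  let h := T.dgO k c hc0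
  have hact : act h y = y := by
    rw [dgO_act T]
    funext r
    by_cases h1 : r = T.E k
    · rw [h1, hyE, mul_zero]
    · by_cases h2 : r = T.E' k
      · rw [h2, hyE', mul_zero]
      · simp [dgS, h1, h2]
  have hacte : act h (sg (T.E k)) = c • sg (T.E k) := by
    rw [dgO_act T]
    funext r
    by_cases h1 : r = T.E k
    · subst h1
      simp [dgS]
    · simp [Pi.single_apply, h1]
  have h1 : h * eichlerIso (T.Q_E k) hy0 * h⁻¹ = eichlerIso (T.Q_E k) (by
      rw [polar_smul_right', hy0, mul_zero] : polar (⇑T.Q) (sg (T.E k)) (c • y) = 0) := by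
    rw [conj_eichlerIso]
    have hz' : T.Q (c • sg (T.E k)) = 0 := by rw [Q_smul, T.Q_E, mul_zero]
    have hb' : polar (⇑T.Q) (c • sg (T.E k)) y = 0 := by rw [polar_smul_left', hy0, mul_zero]
    rw [eichlerIso_congr hacte hact _ _ hz' hb']
    exact eichlerIso_smul c (T.Q_E k) hz' hb' _
  have h2 : ⁅h, eichlerIso (T.Q_E k) hy0⁆ = eichlerIso (T.Q_E k) hB := by
    rw [commutatorElement_def, h1, eichlerIso_inv, eichlerIso_mul]
    have e : c • y + -y = B + (-(B (T.E k))) • sg (T.E k) := by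
      rw [hy]
      ext r
      simp only [Pi.add_apply, Pi.neg_apply, Pi.smul_apply, smul_eq_mul]
      field_simp
      ring
    rw [eichlerIso_congr rfl e _ _ (T.Q_E k) (by
      rw [polar_add_right, hB, polar_smul_right', polar_self_eq, T.Q_E]
      ring)]
    exact eichlerIso_add_self _ (T.Q_E k) hB _
  rw [← h2]
  exact Subgroup.commutator_mem_commutator (Subgroup.mem_top _) (Subgroup.mem_top _)

/-- From one frame vector to all of them. -/
theorem eichler_mem_of_base {k₀ : Fin m}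
    (h0 : ∀ (B : ι → F) (hB : polar (⇑T.Q) (sg (T.E k₀)) B = 0), eichlerIso (T.Q_E k₀) hB ∈ Cfsg.Omega F (⇑T.Q))
    {a : ι} (ha : T.Q (sg a) = 0) (B : ι → F) (hB : polar (⇑T.Q) (sg a) B = 0) :
    eichlerIso ha hB ∈ Cfsg.Omega F (⇑T.Q) := by
  have hn : ∃ n : ↥(Cfsg.isometryGroup F (⇑T.Q)), act n (sg a) = sg (T.E k₀) := by
    rcases T.frame_of_Q ha with ⟨j, hj⟩ | ⟨j, hj⟩
    · have hj' : a = T.E j := by
        have h1 := congrFun hj (T.E j)
        simp only [hf_e, Pi.single_eq_same] at h1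
        by_contra h2
        rw [show (sg a : ι → F) _ = 0 from Pi.single_eq_of_ne (Ne.symm h2) _] at h1
        exact one_ne_zero h1
      subst hj'
      refine ⟨T.spO k₀ j, ?_⟩
      rw [spO, monO_act, one_smul, spP_E, Equiv.swap_apply_right]
    · have hj' : a = T.E' j := by
        have h1 := congrFun hj (T.E' j)
        simp only [hf_f, Pi.single_eq_same] at h1
        by_contra h2
        rw [show (sg a : ι → F) _ = 0 from Pi.single_eq_of_ne (Ne.symm h2) _] at h1
        exact one_ne_zero h1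
      subst hj'
      refine ⟨T.spO k₀ j * T.swO j, ?_⟩
      rw [act_mul, swO, monO_act, one_smul, Equiv.swap_apply_right, spO, monO_act, one_smul, spP_E,
        Equiv.swap_apply_right]
  obtain ⟨n, hn⟩ := hn
  have hb' : polar (⇑T.Q) (sg (T.E k₀)) (act n B) = 0 := by
    rw [← hn, polar_act, hB]
  have h1 := conj_eichlerIso n ha hB
  rw [eichlerIso_congr hn rfl _ _ (T.Q_E k₀) hb'] at h1
  have h2 := h0 _ hb'
  rw [← h1] at h2
  have h3 := (inferInstance : (Cfsg.Omega F (⇑T.Q)).Normal).conj_mem _ h2 n⁻¹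
  have e : n⁻¹ * (n * eichlerIso ha hB * n⁻¹) * n⁻¹⁻¹ = eichlerIso ha hB := by group
  rwa [e] at h3

end FrS

section OdS

variable {T : Fr ι F m} (O : Od T)

variable {a b : ι} (H : Blk a b (O.st a) (O.st b)) (ha : O.st a ≠ a) (hb : O.st b ≠ b)
  (hΩ : ∀ (z : ι) (hz : T.Q (sg z) = 0) (B : ι → F) (hB : polar (⇑T.Q) (sg z) B = 0),
    eichlerIso hz hB ∈ Cfsg.Omega F (⇑T.Q))

include H ha hb hΩ in
theorem hx_lift (t : F) : ∃ g : ↥(Cfsg.Omega F (⇑T.Q)), rhoG T.Q g = Root.Od.phiM H (x t) := by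
  have hB : polar (⇑T.Q) (sg a) ((-t) • sg (O.st b)) = 0 := by
    rw [polar_smul_right', O.hpol, O.hδ1 a ha]
    simp [Pi.single_apply, H.hab'.symm]
  refine ⟨⟨eichlerIso (O.hQs a ha) hB, hΩ _ _ _ _⟩, ?_⟩
  show eichlerMatrix T.Q _ _ = (phi H (x t)).1
  rw [Root.Od.phi_x_eq O H ha hb]

include H ha hb hΩ in
theorem hy_lift (t : F) : ∃ g : ↥(Cfsg.Omega F (⇑T.Q)), rhoG T.Q g = Root.Od.phiM H (y t) := by
  have hB : polar (⇑T.Q) (sg b) ((-t) • sg (O.st a)) = 0 := by
    rw [polar_smul_right', O.hpol, O.hδ1 b hb]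
    simp [Pi.single_apply, H.hab']
  refine ⟨⟨eichlerIso (O.hQs b hb) hB, hΩ _ _ _ _⟩, ?_⟩
  show eichlerMatrix T.Q _ _ = (phi H (y t)).1
  rw [Root.Od.phi_y_eq O H ha hb]

/-- The homomorphism of a pair of coordinates. -/
noncomputable def dPhi : SL(2, F) →* ↥(Cfsg.Omega F (⇑T.Q)) :=
  Root.Od.lift (Root.Od.phiM H) (hx_lift O H ha hb hΩ) (hy_lift O H ha hb hΩ)

theorem dPhi_spec (z : SL(2, F)) : rhoG T.Q (dPhi O H ha hb hΩ z) = (phi H z).1 :=
  Root.Od.lift_spec _ _ _ z

end OdS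

end Cfsg.Agent.Lib.StOm.Om
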