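import Mathlib
import Cfsg.Agent.Lib.StOm.Om

/-!
The root data of the short simple root of type `B`: `SL₂` acting on three consecutive coordinates
through the adjoint action.
-/

set_option autoImplicit false
set_option linter.unusedSectionVars false
set_option linter.unusedSimpArgs false
set_option linter.unusedVariables false

namespace Cfsg.Agent.Lib.StOm.So3

open Matrix QuadraticMap Module
open Cfsg.Agent.Lib.PSL2.Basic
open Cfsg.Agent.Lib.Classical.Orth.Basic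
open Cfsg.Agent.Lib.Classical.Orth.Siegel
open Cfsg.Agent.Lib.StGen.Mono
open Cfsg.Agent.Lib.StGen.Chain (add_of_adj)
open Cfsg.Agent.Lib.StOm.Gen Cfsg.Agent.Lib.StOm.Coord Cfsg.Agent.Lib.StOm.Block Cfsg.Agent.Lib.StOm.Builder
open Cfsg.Agent.Lib.StOm.Root Cfsg.Agent.Lib.StOm.Root.Od Cfsg.Agent.Lib.StOm.Om
open scoped MatrixGroups

variable {ι : Type} [Fintype ι] [DecidableEq ι] {F : Type*} [Field F] {m : ℕ}
variable (e z0 f : ι)

/-- The action. -/
def so3Act (M : SL(2, F)) (v : ι → F) : ι → F := fun r =>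
  if r = e then (M.1 0 0) ^ 2 * v e - 2 * M.1 0 0 * M.1 0 1 * v z0 - (M.1 0 1) ^ 2 * v f
  else if r = z0 then - M.1 0 0 * M.1 1 0 * v e + (M.1 0 0 * M.1 1 1 + M.1 0 1 * M.1 1 0) * v z0 + M.1 0 1 * M.1 1 1 * v f
  else if r = f then - (M.1 1 0) ^ 2 * v e + 2 * M.1 1 0 * M.1 1 1 * v z0 + (M.1 1 1) ^ 2 * v f
  else v r

/-- The action as a linear map. -/
def so3L (M : SL(2, F)) : (ι → F) →ₗ[F] (ι → F) where
  toFun := so3Act e z0 f M
  map_add' v w := by
    funext r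
    simp only [so3Act, Pi.add_apply]
    split_ifs <;> ring
  map_smul' c v := by
    funext r
    simp only [so3Act, Pi.smul_apply, smul_eq_mul, RingHom.id_apply]
    split_ifs <;> ring

variable {e z0 f}

structure Tri (e z0 f : ι) : Prop where
  ez : e ≠ z0
  ef : e ≠ f
  zf : z0 ≠ f

theorem so3Act_e (M : SL(2, F)) (v : ι → F) :
    so3Act e z0 f M v e = (M.1 0 0) ^ 2 * v e - 2 * M.1 0 0 * M.1 0 1 * v z0 - (M.1 0 1) ^ 2 * v f := if_pos rfl

theorem so3Act_z (H : Tri e z0 f) (M : SL(2, F)) (v : ι → F) :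
    so3Act e z0 f M v z0 = - M.1 0 0 * M.1 1 0 * v e + (M.1 0 0 * M.1 1 1 + M.1 0 1 * M.1 1 0) * v z0 + M.1 0 1 * M.1 1 1 * v f := by
  rw [so3Act, if_neg H.ez.symm, if_pos rfl]

theorem so3Act_f (H : Tri e z0 f) (M : SL(2, F)) (v : ι → F) :
    so3Act e z0 f M v f = - (M.1 1 0) ^ 2 * v e + 2 * M.1 1 0 * M.1 1 1 * v z0 + (M.1 1 1) ^ 2 * v f := by
  rw [so3Act, if_neg H.ef.symm, if_neg H.zf.symm, if_pos rfl]

theorem so3Act_ne {r : ι} (h1 : r ≠ e) (h2 : r ≠ z0) (h3 : r ≠ f) (M : SL(2, F)) (v : ι → F) :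
    so3Act e z0 f M v r = v r := by
  rw [so3Act, if_neg h1, if_neg h2, if_neg h3]

theorem so3Act_mul (H : Tri e z0 f) (M N : SL(2, F)) (v : ι → F) :
    so3Act e z0 f (M * N) v = so3Act e z0 f M (so3Act e z0 f N v) := by
  funext r
  have h00 : (M * N).1 0 0 = M.1 0 0 * N.1 0 0 + M.1 0 1 * N.1 1 0 := by
    simp [Matrix.mul_apply, Fin.sum_univ_two]
  have h01 : (M * N).1 0 1 = M.1 0 0 * N.1 0 1 + M.1 0 1 * N.1 1 1 := by
    simp [Matrix.mul_apply, Fin.sum_univ_two]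
  have h10 : (M * N).1 1 0 = M.1 1 0 * N.1 0 0 + M.1 1 1 * N.1 1 0 := by
    simp [Matrix.mul_apply, Fin.sum_univ_two]
  have h11 : (M * N).1 1 1 = M.1 1 0 * N.1 0 1 + M.1 1 1 * N.1 1 1 := by
    simp [Matrix.mul_apply, Fin.sum_univ_two]
  by_cases h1 : r = e
  · subst h1
    rw [so3Act_e, so3Act_e, so3Act_e, so3Act_z H, so3Act_f H, h00, h01]
    ring
  by_cases h2 : r = z0
  · subst h2
    rw [so3Act_z H, so3Act_z H, so3Act_e, so3Act_z H, so3Act_f H, h00, h01, h10, h11]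
    ring
  by_cases h3 : r = f
  · subst h3
    rw [so3Act_f H, so3Act_f H, so3Act_e, so3Act_z H, so3Act_f H, h10, h11]
    ring
  rw [so3Act_ne h1 h2 h3, so3Act_ne h1 h2 h3, so3Act_ne h1 h2 h3]

theorem so3Act_one (H : Tri e z0 f) (v : ι → F) : so3Act e z0 f (1 : SL(2, F)) v = v := by
  funext r
  by_cases h1 : r = e
  · subst h1
    rw [so3Act_e]
    simp
  by_cases h2 : r = z0
  · subst h2
    rw [so3Act_z H]
    simp
  by_cases h3 : r = f
  · subst h3
    rw [so3Act_f H]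
    simp
  rw [so3Act_ne h1 h2 h3]

/-- The homomorphism to matrices. -/
noncomputable def so3Hom (H : Tri e z0 f) : SL(2, F) →* Matrix ι ι F where
  toFun M := LinearMap.toMatrix' (so3L e z0 f M)
  map_one' := by
    have : so3L e z0 f (1 : SL(2, F)) = LinearMap.id := by
      apply LinearMap.ext
      intro v
      exact so3Act_one H v
    rw [this, LinearMap.toMatrix'_id]
  map_mul' M N := by
    rw [← LinearMap.toMatrix'_comp]
    congr 1
    apply LinearMap.ext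
    intro v
    exact so3Act_mul H M N v

theorem so3Hom_apply (H : Tri e z0 f) (M : SL(2, F)) (r c : ι) :
    so3Hom H M r c = so3Act e z0 f M (sg c) r := by
  show LinearMap.toMatrix' (so3L e z0 f M) r c = _
  rw [LinearMap.toMatrix'_apply]
  rfl

theorem so3Hom_mulVec (H : Tri e z0 f) (M : SL(2, F)) (v : ι → F) :
    so3Hom H M *ᵥ v = so3Act e z0 f M v := by
  show LinearMap.toMatrix' (so3L e z0 f M) *ᵥ v = _
  rw [LinearMap.toMatrix'_mulVec]
  rfl

theorem so3x_apply (H : Tri e z0 f) (t : F) (r c : ι) :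
    so3Hom H (x t) r c = if r = c then 1 else if r = e ∧ c = z0 then -(2 * t) else
      if r = e ∧ c = f then -t ^ 2 else if r = z0 ∧ c = f then t else 0 := by
  obtain ⟨h1, h2, h3⟩ := id H
  rw [so3Hom_apply]
  by_cases h4 : r = e
  · subst h4
    rw [so3Act_e]
    simp only [x_00, x_01, x_10, x_11, Pi.single_apply]
    by_cases h5 : c = r <;> by_cases h6 : c = z0 <;> by_cases h7 : c = f <;> simp_all [eq_comm]
  by_cases h8 : r = z0
  · subst h8
    rw [so3Act_z H]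
    simp only [x_00, x_01, x_10, x_11, Pi.single_apply]
    by_cases h5 : c = e <;> by_cases h6 : c = r <;> by_cases h7 : c = f <;> simp_all [eq_comm]
  by_cases h9 : r = f
  · subst h9
    rw [so3Act_f H]
    simp only [x_00, x_01, x_10, x_11, Pi.single_apply]
    by_cases h5 : c = e <;> by_cases h6 : c = z0 <;> by_cases h7 : c = r <;> simp_all [eq_comm]
  rw [so3Act_ne h4 h8 h9]
  simp [h4, h8, Pi.single_apply]

theorem so3y_apply (H : Tri e z0 f) (t : F) (r c : ι) :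
    so3Hom H (y t) r c = if r = c then 1 else if r = z0 ∧ c = e then -t else
      if r = f ∧ c = e then -t ^ 2 else if r = f ∧ c = z0 then 2 * t else 0 := by
  obtain ⟨h1, h2, h3⟩ := id H
  rw [so3Hom_apply]
  by_cases h4 : r = e
  · subst h4
    rw [so3Act_e]
    simp only [y_00, y_01, y_10, y_11, Pi.single_apply]
    by_cases h5 : c = r <;> by_cases h6 : c = z0 <;> by_cases h7 : c = f <;> simp_all [eq_comm]
  by_cases h8 : r = z0
  · subst h8
    rw [so3Act_z H]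
    simp only [y_00, y_01, y_10, y_11, Pi.single_apply]
    by_cases h5 : c = e <;> by_cases h6 : c = r <;> by_cases h7 : c = f <;> simp_all [eq_comm]
  by_cases h9 : r = f
  · subst h9
    rw [so3Act_f H]
    simp only [y_00, y_01, y_10, y_11, Pi.single_apply]
    by_cases h5 : c = e <;> by_cases h6 : c = z0 <;> by_cases h7 : c = r <;> simp_all [eq_comm]
  rw [so3Act_ne h4 h8 h9]
  simp [h4, h8, h9, Pi.single_apply]

theorem sg_ne {c r : ι} : (sg c : ι → F) r ≠ 0 ↔ r = c := by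
  by_cases h : r = c
  · subst h
    simp
  · simp [Pi.single_apply, h]

theorem so3w_mon (H : Tri e z0 f) (r c : ι) : so3Hom H w r c ≠ (0 : F) ↔ r = Equiv.swap e f c := by
  have key : r = Equiv.swap e f c ↔ c = Equiv.swap e f r := by
    constructor
    · intro h
      rw [h]
      simp
    · intro h
      rw [h]
      simp
  rw [so3Hom_apply, key]
  by_cases h4 : r = e
  · subst h4
    have e1 : so3Act r z0 f w (sg c) r = -(sg c : ι → F) f := by
      rw [so3Act_e]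
      simp
    rw [e1, neg_ne_zero, sg_ne, Equiv.swap_apply_left, eq_comm]
  by_cases h8 : r = z0
  · subst h8
    have e1 : so3Act e r f w (sg c) r = -(sg c : ι → F) r := by
      rw [so3Act_z H]
      simp
    rw [e1, neg_ne_zero, sg_ne, Equiv.swap_apply_of_ne_of_ne H.ez.symm H.zf, eq_comm]
  by_cases h9 : r = f
  · subst h9
    have e1 : so3Act e z0 r w (sg c) r = -(sg c : ι → F) e := by
      rw [so3Act_f H]
      simp
    rw [e1, neg_ne_zero, sg_ne, Equiv.swap_apply_right, eq_comm]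
  rw [so3Act_ne h4 h8 h9, sg_ne, Equiv.swap_apply_of_ne_of_ne h4 h9, eq_comm]

theorem so3d_mon (H : Tri e z0 f) (s : F) (hs : s ≠ 0) (r c : ι) : so3Hom H (d s hs) r c ≠ (0 : F) ↔ r = c := by
  rw [so3Hom_apply]
  by_cases h4 : r = e
  · subst h4
    have e1 : so3Act r z0 f (d s hs) (sg c) r = s ^ 2 * (sg c : ι → F) r := by
      rw [so3Act_e]
      simp
    rw [e1, mul_ne_zero_iff, sg_ne]
    simp [hs]
  by_cases h8 : r = z0
  · subst h8
    have e1 : so3Act e r f (d s hs) (sg c) r = (sg c : ι → F) r := by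
      rw [so3Act_z H]
      simp [hs]
    rw [e1, sg_ne]
  by_cases h9 : r = f
  · subst h9
    have e1 : so3Act e z0 r (d s hs) (sg c) r = (s⁻¹) ^ 2 * (sg c : ι → F) r := by
      rw [so3Act_f H]
      simp
    rw [e1, mul_ne_zero_iff, sg_ne]
    simp [hs]
  rw [so3Act_ne h4 h8 h9, sg_ne]

section Data

variable {T : Fr ι F m} (O : Od T) (H : Tri e z0 f) (hse : O.st e = f) (hsz : O.st z0 = z0)
  (hδz : O.δ z0 = 2) (hQz : T.Q (sg z0) = 1)
  (hΩ : ∀ (z : ι) (hz : T.Q (sg z) = 0) (B : ι → F) (hB : polar (⇑T.Q) (sg z) B = 0),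
    eichlerIso hz hB ∈ Cfsg.Omega F (⇑T.Q))

include H hse in
theorem hsf : O.st f = e := by
  rw [← hse, O.st_st]

include H hse in
theorem hst_e : O.st e ≠ e := by
  rw [hse]
  exact H.ef.symm

include H hse in
theorem hst_f : O.st f ≠ f := by
  rw [hsf O H hse]
  exact H.ef

include H hse hsz hδz hQz hΩ in
theorem hx_lift (t : F) : ∃ g : ↥(Cfsg.Omega F (⇑T.Q)), rhoG T.Q g = so3Hom H (x t) := by
  have he := hst_e O H hse
  have hB : polar (⇑T.Q) (sg e) (t • sg z0) = 0 := by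
    rw [polar_smul_right', O.hpol, O.hδ1 e he, hse]
    simp [Pi.single_apply, H.zf.symm]
  refine ⟨⟨eichlerIso (O.hQs e he) hB, hΩ _ _ _ _⟩, ?_⟩
  show eichlerMatrix T.Q _ _ = _
  apply Matrix.ext_of_mulVec_single
  intro c
  generalize (Pi.single c 1 : ι → F) = v
  rw [eichlerMatrix_mulVec, so3Hom_mulVec, Q_smul, hQz, O.hpol e, O.hδ1 e he, hse, polar_smul_left', O.hpol z0,
    hδz, hsz]
  funext r
  obtain ⟨h1, h2, h3⟩ := id H
  by_cases h4 : r = e
  · subst h4
    rw [so3Act_e]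
    simp [Pi.single_apply, h1, h2]
    ring
  by_cases h8 : r = z0
  · subst h8
    rw [so3Act_z H]
    simp [Pi.single_apply, h1.symm, h3]
    ring
  by_cases h9 : r = f
  · subst h9
    rw [so3Act_f H]
    simp [Pi.single_apply, h2.symm, h3.symm]
  rw [so3Act_ne h4 h8 h9]
  simp [Pi.single_apply, h4, h8]

include H hse hsz hδz hQz hΩ in
theorem hy_lift (t : F) : ∃ g : ↥(Cfsg.Omega F (⇑T.Q)), rhoG T.Q g = so3Hom H (y t) := by
  have he := hst_f O H hse
  have hsf' := hsf O H hse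
  have hB : polar (⇑T.Q) (sg f) ((-t) • sg z0) = 0 := by
    rw [polar_smul_right', O.hpol, O.hδ1 f he, hsf']
    simp [Pi.single_apply, H.ez]
  refine ⟨⟨eichlerIso (O.hQs f he) hB, hΩ _ _ _ _⟩, ?_⟩
  show eichlerMatrix T.Q _ _ = _
  apply Matrix.ext_of_mulVec_single
  intro c
  generalize (Pi.single c 1 : ι → F) = v
  rw [eichlerMatrix_mulVec, so3Hom_mulVec, Q_smul, hQz, O.hpol f, O.hδ1 f he, hsf', polar_smul_left', O.hpol z0,
    hδz, hsz]
  funext r
  obtain ⟨h1, h2, h3⟩ := id H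
  by_cases h4 : r = e
  · subst h4
    rw [so3Act_e]
    simp [Pi.single_apply, h1, h2]
  by_cases h8 : r = z0
  · subst h8
    rw [so3Act_z H]
    simp [Pi.single_apply, h1.symm, h3]
    ring
  by_cases h9 : r = f
  · subst h9
    rw [so3Act_f H]
    simp [Pi.single_apply, h2.symm, h3.symm]
    ring
  rw [so3Act_ne h4 h8 h9]
  simp [Pi.single_apply, h9, h8]

/-- The homomorphism of the short root. -/
noncomputable def so3Phi : SL(2, F) →* ↥(Cfsg.Omega F (⇑T.Q)) :=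
  Root.Od.lift (so3Hom H) (hx_lift O H hse hsz hδz hQz hΩ) (hy_lift O H hse hsz hδz hQz hΩ)

theorem so3Phi_spec (z : SL(2, F)) : rhoG T.Q (so3Phi O H hse hsz hδz hQz hΩ z) = so3Hom H z :=
  Root.Od.lift_spec _ _ _ z

variable [Finite ↥(Cfsg.Omega F (⇑T.Q))]

include H in
theorem inv_so3 (hez : O.ord z0 = O.ord e + 1) (hzf : O.ord f = O.ord z0 + 1) {r c : ι} (h1 : O.ord r < O.ord c)
    (h2 : O.ord (Equiv.swap e f c) < O.ord (Equiv.swap e f r)) :
    (r = e ∧ c = z0) ∨ (r = z0 ∧ c = f) ∨ (r = e ∧ c = f) := by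
  have hk : ∀ x : ι, (x = e ∧ O.ord (Equiv.swap e f x) = O.ord f) ∨ (x = f ∧ O.ord (Equiv.swap e f x) = O.ord e) ∨
      (x = z0 ∧ O.ord (Equiv.swap e f x) = O.ord z0) ∨ (x ≠ z0 ∧ O.ord (Equiv.swap e f x) = O.ord x ∧ O.ord x ≠ O.ord z0) := by
    intro x
    by_cases h3 : x = e
    · subst h3
      exact Or.inl ⟨rfl, by rw [Equiv.swap_apply_left]⟩
    by_cases h4 : x = f
    · subst h4
      exact Or.inr (Or.inl ⟨rfl, by rw [Equiv.swap_apply_right]⟩)
    by_cases h5 : x = z0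
    · subst h5
      exact Or.inr (Or.inr (Or.inl ⟨rfl, by rw [Equiv.swap_apply_of_ne_of_ne h3 h4]⟩))
    · exact Or.inr (Or.inr (Or.inr ⟨h5, by rw [Equiv.swap_apply_of_ne_of_ne h3 h4], fun h => h5 (O.hord h)⟩))
  rcases hk r with ⟨h3, h3'⟩ | ⟨h3, h3'⟩ | ⟨h3, h3'⟩ | ⟨h3, h3', h3''⟩ <;>
    rcases hk c with ⟨h4, h4'⟩ | ⟨h4, h4'⟩ | ⟨h4, h4'⟩ | ⟨h4, h4', h4''⟩ <;>
    first
    | exact Or.inl ⟨h3, h4⟩
    | exact Or.inr (Or.inl ⟨h3, h4⟩)
    | exact Or.inr (Or.inr ⟨h3, h4⟩)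
    | (exfalso; subst_vars; omega)

/-- The root data of the short root. -/
noncomputable def so3Data (h2 : (2 : F) ≠ 0) (hez : O.ord z0 = O.ord e + 1) (hzf : O.ord f = O.ord z0 + 1)
    (hfix : ∀ r, O.st r = r → r = z0)
    (hQe : ∀ u, IsUT (rhoG T.Q) O.ord u → rhoG T.Q u e f = - (rhoG T.Q u z0 f) ^ 2) :
    RootData (rhoG T.Q) (ord := O.ord) where
  φ := so3Phi O H hse hsz hδz hQz hΩ
  π := Equiv.swap e f
  a := z0
  b := f
  a₂ := e
  b₂ := f
  hab := by omega
  hab₂ := by omega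
  rev := by
    rw [Equiv.swap_inv, Equiv.swap_apply_right, Equiv.swap_apply_of_ne_of_ne H.ez.symm H.zf]
    omega
  Sx r c := (r = e ∧ c = z0) ∨ (r = z0 ∧ c = f) ∨ (r = e ∧ c = f)
  Sx_ab := Or.inr (Or.inr ⟨rfl, rfl⟩)
  Sx_ord := by
    rintro r c (⟨rfl, rfl⟩ | ⟨rfl, rfl⟩ | ⟨rfl, rfl⟩) <;> omega
  mon_w := by
    intro r c
    rw [so3Phi_spec]
    exact so3w_mon H r c
  π_a := Equiv.swap_apply_left _ _
  π_b := Equiv.swap_apply_right _ _
  d_mem := by
    intro t ht r c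
    rw [so3Phi_spec]
    exact so3d_mon H t ht r c
  x_diag := by
    intro t r
    rw [so3Phi_spec, so3x_apply, if_pos rfl]
  y_diag := by
    intro t r
    rw [so3Phi_spec, so3y_apply, if_pos rfl]
  x_supp := by
    intro t r c hrc h
    rw [so3Phi_spec, so3x_apply, if_neg hrc] at h
    by_cases h1 : r = e ∧ c = z0
    · exact Or.inl h1
    · rw [if_neg h1] at h
      by_cases h3 : r = e ∧ c = f
      · exact Or.inr (Or.inr h3)
      · rw [if_neg h3] at h
        by_cases h4 : r = z0 ∧ c = f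
        · exact Or.inr (Or.inl h4)
        · rw [if_neg h4] at h
          exact absurd rfl h
  y_supp := by
    intro t r c hrc h
    rw [so3Phi_spec, so3y_apply, if_neg hrc] at h
    by_cases h1 : r = z0 ∧ c = e
    · exact Or.inl ⟨h1.2, h1.1⟩
    · rw [if_neg h1] at h
      by_cases h3 : r = f ∧ c = e
      · exact Or.inr (Or.inr ⟨h3.2, h3.1⟩)
      · rw [if_neg h3] at h
        by_cases h4 : r = f ∧ c = z0
        · exact Or.inr (Or.inl ⟨h4.2, h4.1⟩)
        · rw [if_neg h4] at h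
          exact absurd rfl h
  x_ab := by
    intro t
    rw [so3Phi_spec, so3x_apply, if_neg H.zf, if_neg (fun h => H.ez h.1.symm), if_neg (fun h => H.ez h.1.symm),
      if_pos ⟨rfl, rfl⟩]
  y_ba := by
    rw [so3Phi_spec, so3y_apply, if_neg H.zf.symm, if_neg (fun h => H.zf h.1.symm), if_neg (fun h => H.ez h.2.symm),
      if_pos ⟨rfl, rfl⟩]
    simpa using h2
  add := fun u v hu hv => add_of_adj O.hord hzf hu hv
  van := by
    intro u hu h0 r c h1 h3
    rcases inv_so3 O H hez hzf h1 h3 with ⟨rfl, rfl⟩ | ⟨rfl, rfl⟩ | ⟨rfl, rfl⟩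
    · have h4 := O.form u.1 c f
      rw [hsz, hδz, hsf O H hse, O.hδ1 f (hst_f O H hse), one_mul] at h4
      have hu' : u⁻¹ ∈ USub (rhoG T.Q) O.hord := (USub (rhoG T.Q) O.hord).inv_mem hu
      have h5 := add_of_adj O.hord hez hu hu'
      rw [mul_inv_cancel, map_one, Matrix.one_apply_ne H.ez] at h5
      have h6 : rhoG T.Q u⁻¹ r c = rhoO T.Q u.1⁻¹ r c := rfl
      have h7 : rhoG T.Q u c f = rhoO T.Q u.1 c f := rfl
      have h8 : rhoO T.Q u.1 c f = 0 := h0
      rw [h8, mul_zero] at h4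
      rw [h6, ← h4, add_zero] at h5
      exact h5.symm
    · exact h0
    · rw [hQe u hu, h0]
      simp
  H_norm := by
    intro h hh t
    refine ⟨rhoG T.Q h z0 z0 * t * (rhoG T.Q h f f)⁻¹, ?_⟩
    apply rhoG_inj
    have hE : rhoG T.Q h e e = (rhoG T.Q h f f)⁻¹ := by
      have := diag_inv O hh f
      rwa [hsf O H hse] at this
    have hZ : rhoG T.Q h z0 z0 = (rhoG T.Q h z0 z0)⁻¹ := by
      have := diag_inv O hh z0
      rwa [hsz] at this
    have hZ' : rhoG T.Q h z0 z0 * rhoG T.Q h z0 z0 = 1 := by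
      nth_rewrite 2 [hZ]
      exact mul_inv_cancel₀ (diag_ne hh z0)
    have hfne := diag_ne hh f
    have hzne := diag_ne hh z0
    ext r c
    rw [diag_conj hh, so3Phi_spec, so3Phi_spec, so3x_apply, so3x_apply]
    by_cases h1 : r = c
    · subst h1
      rw [if_pos rfl, if_pos rfl, mul_one]
      exact mul_inv_cancel₀ (diag_ne hh r)
    · rw [if_neg h1, if_neg h1]
      by_cases h3 : r = e ∧ c = z0
      · obtain ⟨rfl, rfl⟩ := h3
        rw [if_pos ⟨rfl, rfl⟩, if_pos ⟨rfl, rfl⟩, hE, ← hZ]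
        ring
      · rw [if_neg h3, if_neg h3]
        by_cases h4 : r = e ∧ c = f
        · obtain ⟨rfl, rfl⟩ := h4
          rw [if_pos ⟨rfl, rfl⟩, if_pos ⟨rfl, rfl⟩, hE]
          calc _ = -(t ^ 2 * ((rhoG T.Q h c c)⁻¹ * (rhoG T.Q h c c)⁻¹)) := by ring
            _ = -((rhoG T.Q h z0 z0 * rhoG T.Q h z0 z0) * t ^ 2 * ((rhoG T.Q h c c)⁻¹ * (rhoG T.Q h c c)⁻¹)) := by
                rw [hZ', one_mul]
            _ = _ := by ring
        · rw [if_neg h4, if_neg h4]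
          by_cases h5 : r = z0 ∧ c = f
          · obtain ⟨rfl, rfl⟩ := h5
            rw [if_pos ⟨rfl, rfl⟩, if_pos ⟨rfl, rfl⟩]
          · rw [if_neg h5, if_neg h5]
            simp
  dich := by
    intro n π' hn
    have hs : ∀ r, π'⁻¹ (O.st r) = O.st (π'⁻¹ r) := O.mon_swap (n := n.1⁻¹) hn.inv
    have h3 : π'⁻¹ z0 = z0 := by
      apply hfix
      rw [← hs, hsz]
    have h4 : π'⁻¹ f = O.st (π'⁻¹ e) := by
      rw [← hs, hse]
    have h5 : O.ord (π'⁻¹ e) ≠ O.ord z0 := fun h => H.ez (π'⁻¹.injective (O.hord (h.trans (by rw [h3]))))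
    have h6 := O.ord_st (π'⁻¹ e)
    have h7 := O.ord_st z0
    rw [hsz] at h7
    rw [← h4] at h6
    rcases lt_or_gt_of_ne h5 with h8 | h8
    · left
      rintro r c (⟨rfl, rfl⟩ | ⟨rfl, rfl⟩ | ⟨rfl, rfl⟩)
      · rw [h3]
        exact h8
      · rw [h3]
        omega
      · omega
    · right
      rintro r c (⟨rfl, rfl⟩ | ⟨rfl, rfl⟩ | ⟨rfl, rfl⟩)
      · rw [h3]
        exact h8
      · rw [h3]
        omega
      · omega

end Data

end Cfsg.Agent.Lib.StOm.So3
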