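import Mathlib
import Cfsg.Agent.Lib.StOm.So3
import Cfsg.Agent.Lib.StOm.Cov
import Cfsg.Agent.Lib.Classical.Orth.Models

/-!
The Steinberg character of `PΩ_{2n+3}(q)`, `q` odd.
-/

set_option autoImplicit false
set_option linter.unusedSectionVars false
set_option linter.unusedSimpArgs false
set_option linter.unusedVariables false

namespace Cfsg.Agent.Lib.StOm.Odd

open Matrix QuadraticMap Module Sum
open Cfsg.Agent.Lib.PSL2.Basic
open Cfsg.Agent.Lib.Classical.Orth.Basic
open Cfsg.Agent.Lib.Classical.Orth.Siegel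
open Cfsg.Agent.Lib.Classical.Orth.Models
open Cfsg.Agent.Lib.StGen.Mono
open Cfsg.Agent.Lib.StOm.Coord Cfsg.Agent.Lib.StOm.Block Cfsg.Agent.Lib.StOm.Builder
open Cfsg.Agent.Lib.StOm.Root Cfsg.Agent.Lib.StOm.Om Cfsg.Agent.Lib.StOm.So3
open scoped MatrixGroups

variable {n : ℕ} {F : Type*} [Field F]

/-- The index type. -/
abbrev Ix (n : ℕ) := Unit ⊕ (Fin (n + 1) ⊕ Fin (n + 1))

/-- The coordinates of the odd form. -/
noncomputable def frO (n : ℕ) (F : Type*) [Field F] : Fr (Ix n) F (n + 1) where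
  Q := oddForm (n + 1) F
  E i := inr (inl i)
  E' i := inr (inr i)
  hE := fun a b h => by simpa using h
  hE' := fun a b h => by simpa using h
  hEE' := fun i j h => by simp at h
  R v := v (inl ()) ^ 2
  hQ v := by
    rw [coe_oddForm_apply, Cfsg.quadFormOdd]
    ring
  hR v v' h := by
    rw [h (inl ()) (fun i h1 => by simp at h1) (fun i h1 => by simp at h1)]
  hZ r r' h1 h2 h3 h4 := by
    rcases r with ⟨⟩ | (r | r)
    · rcases r' with ⟨⟩ | (r' | r')
      · rfl
      · exact absurd rfl (h3 r')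
      · exact absurd rfl (h4 r')
    · exact absurd rfl (h1 r)
    · exact absurd rfl (h2 r)
  hA v h1 h2 := by
    funext r
    rcases r with ⟨⟩ | (r | r)
    · exact pow_eq_zero_iff (two_ne_zero) |>.1 h2
    · exact (h1 r).1
    · exact (h1 r).2

/-- The position of a coordinate. -/
def ordO : Ix n → ℕ
  | inl _ => n + 1
  | inr (inl i) => i
  | inr (inr i) => 2 * (n + 1) - i

@[simp] theorem ordO_u (u : Unit) : ordO (inl u : Ix n) = n + 1 := rfl
@[simp] theorem ordO_e (i : Fin (n + 1)) : ordO (inr (inl i) : Ix n) = i := rfl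
@[simp] theorem ordO_f (i : Fin (n + 1)) : ordO (inr (inr i) : Ix n) = 2 * (n + 1) - i := rfl

theorem ordO_inj : Function.Injective (ordO : Ix n → ℕ) := by
  rintro (⟨⟩ | (a | a)) (⟨⟩ | (b | b)) h <;> simp only [ordO_u, ordO_e, ordO_f] at h
  · rfl
  · have := b.2
    omega
  · have := b.2
    omega
  · have := a.2
    omega
  · exact congrArg (fun i => inr (inl i)) (Fin.ext h)
  · have := a.2
    have := b.2
    omega
  · have := a.2
    omega
  · have := a.2
    have := b.2
    omega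
  · have := a.2
    have := b.2
    exact congrArg (fun i => inr (inr i)) (Fin.ext (by omega))

/-- The involution. -/
def stO : Ix n → Ix n
  | inl u => inl u
  | inr x => inr (Sum.swap x)

@[simp] theorem stO_u (u : Unit) : stO (inl u : Ix n) = inl u := rfl
@[simp] theorem stO_e (i : Fin (n + 1)) : stO (inr (inl i) : Ix n) = inr (inr i) := rfl
@[simp] theorem stO_f (i : Fin (n + 1)) : stO (inr (inr i) : Ix n) = inr (inl i) := rfl

variable (h2 : (2 : F) ≠ 0)

/-- The order data. -/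
noncomputable def odO (h2 : (2 : F) ≠ 0) : Od (frO n F) where
  st := stO
  δ r := match r with
    | inl _ => 2
    | inr _ => 1
  ord := ordO
  K := 2 * (n + 1)
  st_st := by
    rintro (⟨⟩ | (a | a)) <;> rfl
  hδ := by
    rintro (⟨⟩ | a)
    · exact h2
    · exact one_ne_zero
  hδ1 := by
    rintro (⟨⟩ | a) h
    · exact absurd rfl h
    · rfl
  hQs := by
    rintro (⟨⟩ | (a | a)) h
    · exact absurd rfl h
    · exact (frO n F).Q_E a
    · exact (frO n F).Q_E' a
  hpol := by
    rintro (⟨⟩ | (a | a)) x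
    · exact (frO n F).polar_E' 0 x |> fun _ => by
        show polar (⇑(oddForm (n + 1) F)) _ x = _
        rw [coe_oddForm]
        exact polar_odd_single_unit _ x
    · show polar (⇑(oddForm (n + 1) F)) _ x = 1 * _
      rw [coe_oddForm, one_mul]
      exact polar_odd_single_inl _ a x
    · show polar (⇑(oddForm (n + 1) F)) _ x = 1 * _
      rw [coe_oddForm, one_mul]
      exact polar_odd_single_inr _ a x
  hord := ordO_inj
  ord_st := by
    rintro (⟨⟩ | (a | a))
    · simp
      ring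
    · simp
      have := a.2
      omega
    · simp
      have := a.2
      omega

@[simp] theorem odO_st (r : Ix n) : (odO (n := n) h2).st r = stO r := rfl
@[simp] theorem odO_ord (r : Ix n) : (odO (n := n) h2).ord r = ordO r := rfl

theorem frO_Q_u : (frO n F).Q (sg (inl ())) = 1 := by
  rw [(frO n F).hQ]
  simp [frO, Pi.single_apply]

theorem odO_δ_u : (odO (n := n) h2).δ (inl ()) = 2 := rfl

section Assembly

variable [Fintype F]

instance : Finite ↥(Cfsg.Omega F (⇑(frO n F).Q)) := inferInstance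

include h2 in
/-- All the Eichler transformations at frame vectors lie in `Ω`. -/
theorem hΩ (z : Ix n) (hz : (frO n F).Q (sg z) = 0) (B : Ix n → F)
    (hB : polar (⇑(frO n F).Q) (sg z) B = 0) : eichlerIso hz hB ∈ Cfsg.Omega F (⇑(frO n F).Q) := by
  refine eichler_mem_of_base (frO n F) (k₀ := 0) ?_ hz B hB
  intro B' hB'
  refine eichler_mem_scalar (frO n F) 0 (c := -1) (by simp) ?_ B' hB'
  intro h
  apply h2
  have : (-1 : F) + 1 = 0 := by ring
  rw [h] at this
  rw [← this]
  ring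

/-- The blocks of the long roots. -/
theorem blk (i : Fin n) : Blk (inr (inl i.castSucc) : Ix n) (inr (inl i.succ)) (stO (inr (inl i.castSucc))) (stO (inr (inl i.succ))) := by
  have h0 : i.castSucc ≠ i.succ := Fin.castSucc_lt_succ.ne
  exact ⟨by simpa using h0, by simpa using h0, by simp, by simp, by simp, by simp⟩

theorem tri : Tri (inr (inl (Fin.last n)) : Ix n) (inl ()) (inr (inr (Fin.last n))) :=
  ⟨by simp, by simp, by simp⟩

theorem hQe (u : ↥(Cfsg.Omega F (⇑(frO n F).Q))) (hu : IsUT (rhoG (frO n F).Q) ordO u) :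
    rhoG (frO n F).Q u (inr (inl (Fin.last n))) (inr (inr (Fin.last n))) =
      - (rhoG (frO n F).Q u (inl ()) (inr (inr (Fin.last n)))) ^ 2 := by
  have h1 := Q_act u.1 (sg (inr (inr (Fin.last n))))
  rw [(frO n F).Q_E' (Fin.last n) |> fun h => (show (frO n F).Q (sg (inr (inr (Fin.last n)))) = 0 from h),
    (frO n F).hQ] at h1
  have h3 : ∀ r, act u.1 (sg (inr (inr (Fin.last n)))) r = rhoG (frO n F).Q u r (inr (inr (Fin.last n))) := fun r =>
    act_single _ _ _ _
  have h4 : ∀ i : Fin (n + 1), i ≠ Fin.last n → act u.1 (sg (inr (inr (Fin.last n)))) (inr (inr i)) = 0 := by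
    intro i hi
    rw [h3]
    apply hu.1
    have h5 : (i : ℕ) < n := by
      have := i.2
      have h6 : (i : ℕ) ≠ n := fun h => hi (Fin.ext h)
      omega
    simp
    omega
  have h5 : act u.1 (sg (inr (inr (Fin.last n)))) (inr (inr (Fin.last n))) = 1 := by
    rw [h3]
    exact hu.2 _
  have h6 : ∑ i : Fin (n + 1), act u.1 (sg (inr (inr (Fin.last n)))) ((frO n F).E i) * act u.1 (sg (inr (inr (Fin.last n)))) ((frO n F).E' i)
      = act u.1 (sg (inr (inr (Fin.last n)))) (inr (inl (Fin.last n))) := by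
    rw [Finset.sum_eq_single (Fin.last n)]
    · show _ * act u.1 _ (inr (inr (Fin.last n))) = _
      rw [h5, mul_one]
      rfl
    · intro i _ hi
      show _ * act u.1 _ (inr (inr i)) = _
      rw [h4 i hi, mul_zero]
    · simp
  rw [h6] at h1
  have h7 : (frO n F).R (act u.1 (sg (inr (inr (Fin.last n))))) =
      (rhoG (frO n F).Q u (inl ()) (inr (inr (Fin.last n)))) ^ 2 := by
    show (act u.1 _ (inl ())) ^ 2 = _
    rw [h3]
  rw [h7, h3] at h1
  linear_combination h1

/-- The root data. -/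
noncomputable def allD : Option (Fin n) → RootData (rhoG (frO n F).Q) (ord := (ordO : Ix n → ℕ))
  | none => so3Data (odO h2) (tri) rfl rfl (odO_δ_u h2) frO_Q_u (hΩ h2) h2 (by simp) (by simp; omega)
      (by
        rintro (⟨⟩ | (a | a)) h
        · rfl
        · simp at h
        · simp at h) (hQe)
  | some i => Od.adjData (odO h2) (blk i) (by simp) (by simp)
      (dPhi (odO h2) (blk i) (by simp) (by simp) (hΩ h2)) (dPhi_spec _ _ _ _ _) (by simp)

theorem allD_none : (allD (n := n) h2 none).π = Equiv.swap (inr (inl (Fin.last n))) (inr (inr (Fin.last n))) := rfl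

theorem allD_some (i : Fin n) : (allD (n := n) h2 (some i)).π =
    pp (inr (inl i.castSucc)) (inr (inl i.succ)) (stO (inr (inl i.castSucc))) (stO (inr (inl i.succ))) := rfl

theorem allD_some_E (i : Fin n) (k : Fin (n + 1)) : (allD (n := n) h2 (some i)).π (inr (inl k)) =
    inr (inl (Equiv.swap i.castSucc i.succ k)) := by
  have h3 : Function.Injective (fun i : Fin (n + 1) => (inr (inl i) : Ix n)) := fun a b h => by simpa using h
  have h4 : Equiv.swap (inr (inr i.castSucc)) (inr (inr i.succ)) (inr (inl k) : Ix n) = inr (inl k) :=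
    Equiv.swap_apply_of_ne_of_ne (by simp) (by simp)
  rw [allD_some, pp, Equiv.Perm.mul_apply, stO_e, stO_e, h4]
  exact Function.Injective.swap_apply h3 _ _ _

theorem allD_some_E' (i : Fin n) (k : Fin (n + 1)) : (allD (n := n) h2 (some i)).π (inr (inr k)) =
    inr (inr (Equiv.swap i.castSucc i.succ k)) := by
  have h3 : Function.Injective (fun i : Fin (n + 1) => (inr (inr i) : Ix n)) := fun a b h => by simpa using h
  have h4 : Equiv.swap (inr (inr i.castSucc)) (inr (inr i.succ)) (inr (inr k) : Ix n) = inr (inr (Equiv.swap i.castSucc i.succ k)) :=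
    Function.Injective.swap_apply h3 _ _ _
  rw [allD_some, pp, Equiv.Perm.mul_apply, stO_e, stO_e, h4, Equiv.swap_apply_of_ne_of_ne (by simp) (by simp)]

theorem allD_inj : Function.Injective fun j => (allD (n := n) (F := F) h2 j).π := by
  rintro (_ | i) (_ | i') h
  · rfl
  · exfalso
    have h1 := congrArg (fun π => π (inr (inl (Fin.last n)))) h
    simp only at h1
    rw [allD_none, Equiv.swap_apply_left, allD_some_E] at h1
    simp at h1
  · exfalso
    have h1 := congrArg (fun π => π (inr (inl (Fin.last n)))) h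
    simp only at h1
    rw [allD_none, Equiv.swap_apply_left, allD_some_E] at h1
    simp at h1
  · have h1 := congrArg (fun π => π (inr (inl i.castSucc))) h
    simp only at h1
    rw [allD_some_E, allD_some_E, Equiv.swap_apply_left, Equiv.swap_apply_def] at h1
    simp only [Sum.inr.injEq, Sum.inl.injEq] at h1
    congr 1
    split_ifs at h1 with h5 h6
    · exact Fin.ext (by simpa [Fin.ext_iff] using h1)
    · simp only [Fin.ext_iff, Fin.val_castSucc, Fin.val_succ] at h1 h6
      omega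
    · simp only [Fin.ext_iff, Fin.val_castSucc, Fin.val_succ] at h1
      omega

theorem allD_τ (j : Option (Fin n)) (c r : Ix n) (h1 : ordO c < ordO r)
    (h3 : ordO ((allD (F := F) h2 j).π r) < ordO ((allD (F := F) h2 j).π c)) :
    (allD (F := F) h2 j).Sx ((allD (F := F) h2 j).π r) ((allD (F := F) h2 j).π c) := by
  rcases j with _ | i
  · have hT := tri (n := n)
    rw [allD_none] at h3 ⊢
    rcases inv_so3 (odO h2) hT (by simp) (by simp; omega) h1 h3 with ⟨rfl, rfl⟩ | ⟨rfl, rfl⟩ | ⟨rfl, rfl⟩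
    · show ((_ = _ ∧ _ = _) ∨ (_ = _ ∧ _ = _) ∨ (_ = _ ∧ _ = _))
      rw [Equiv.swap_apply_of_ne_of_ne hT.ez.symm hT.zf, Equiv.swap_apply_left]
      exact Or.inr (Or.inl ⟨rfl, rfl⟩)
    · show ((_ = _ ∧ _ = _) ∨ (_ = _ ∧ _ = _) ∨ (_ = _ ∧ _ = _))
      rw [Equiv.swap_apply_of_ne_of_ne hT.ez.symm hT.zf, Equiv.swap_apply_right]
      exact Or.inl ⟨rfl, rfl⟩
    · show ((_ = _ ∧ _ = _) ∨ (_ = _ ∧ _ = _) ∨ (_ = _ ∧ _ = _))
      rw [Equiv.swap_apply_left, Equiv.swap_apply_right]
      exact Or.inr (Or.inr ⟨rfl, rfl⟩)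
  · have hB := blk (n := n) i
    rw [allD_some] at h3 ⊢
    rcases Od.inv_adj (odO h2) hB (by simp) h1 h3 with ⟨rfl, rfl⟩ | ⟨rfl, rfl⟩
    · show ((_ = _ ∧ _ = _) ∨ (_ = _ ∧ _ = _))
      rw [pp_b hB, pp_a hB]
      exact Or.inl ⟨rfl, rfl⟩
    · show ((_ = _ ∧ _ = _) ∨ (_ = _ ∧ _ = _))
      simp only [odO_st]
      rw [pp_a' hB, pp_b' hB]
      exact Or.inr ⟨rfl, rfl⟩

theorem ord_surj (r : Ix n) (k : ℕ) (h : k < ordO r) : ∃ j : Ix n, ordO j = k := by
  have h1 : ordO r ≤ 2 * (n + 1) := by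
    rcases r with ⟨⟩ | (a | a) <;> simp <;> have := a.2 <;> omega
  rcases lt_trichotomy k (n + 1) with h3 | h3 | h3
  · exact ⟨inr (inl ⟨k, h3⟩), rfl⟩
  · exact ⟨inl (), h3.symm⟩
  · exact ⟨inr (inr ⟨2 * (n + 1) - k, by omega⟩), by simp; omega⟩

theorem allD_cov (r c : Ix n) (h : ordO c = ordO r + 1) : ∃ j, (allD (F := F) h2 j).Sx r c := by
  rcases r with ⟨⟩ | (k | k)
  · rcases c with ⟨⟩ | (l | l) <;> simp only [ordO_u, ordO_e, ordO_f] at h
    · omega
    · have := l.2
      omega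
    · have hl := l.2
      have e1 : l = Fin.last n := Fin.ext (by simp; omega)
      subst e1
      exact ⟨none, Or.inr (Or.inl ⟨rfl, rfl⟩)⟩
  · have hk := k.2
    rcases c with ⟨⟩ | (l | l) <;> simp only [ordO_u, ordO_e, ordO_f] at h
    · have e1 : k = Fin.last n := Fin.ext (by simp; omega)
      subst e1
      exact ⟨none, Or.inl ⟨rfl, rfl⟩⟩
    · have hl := l.2
      refine ⟨some ⟨k, by omega⟩, Or.inl ⟨rfl, ?_⟩⟩
      exact congrArg (fun i => inr (inl i)) (Fin.ext (by simp; omega))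
    · have hl := l.2
      omega
  · have hk := k.2
    rcases c with ⟨⟩ | (l | l) <;> simp only [ordO_u, ordO_e, ordO_f] at h
    · omega
    · have hl := l.2
      omega
    · have hl := l.2
      refine ⟨some ⟨l, by omega⟩, Or.inr ⟨?_, rfl⟩⟩
      exact congrArg (fun i => inr (inr i)) (Fin.ext (by simp; omega))

/-! ### Generation -/

include h2 in
theorem trans_E (k : ℕ) (hk : k < n + 1) : ∃ g : ↥(Cfsg.Omega F (⇑(frO n F).Q)), ∃ π, IsMon (rhoG (frO n F).Q) g π ∧
    π (inr (inl ⟨k, hk⟩)) = inr (inl 0) := by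
  induction k with
  | zero => exact ⟨1, 1, isMon_one, rfl⟩
  | succ k ih =>
    obtain ⟨g, π, hg, hπ⟩ := ih (by omega)
    refine ⟨g * (allD h2 (some ⟨k, by omega⟩)).φ w, π * (allD h2 (some ⟨k, by omega⟩)).π,
      hg.mul (allD h2 (some ⟨k, by omega⟩)).mon_w, ?_⟩
    rw [Equiv.Perm.mul_apply, allD_some_E]
    have e1 : (⟨k + 1, hk⟩ : Fin (n + 1)) = (⟨k, by omega⟩ : Fin n).succ := rfl
    rw [e1, Equiv.swap_apply_right]
    exact hπ

include h2 in
theorem trans_F (d k : ℕ) (hk : k + d = n) : ∃ g : ↥(Cfsg.Omega F (⇑(frO n F).Q)), ∃ π, IsMon (rhoG (frO n F).Q) g π ∧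
    π (inr (inr ⟨k, by omega⟩)) = inr (inl 0) := by
  induction d generalizing k with
  | zero =>
    obtain ⟨g, π, hg, hπ⟩ := trans_E (n := n) (F := F) h2 n (by omega)
    refine ⟨g * (allD h2 none).φ w, π * (allD h2 none).π, hg.mul (allD h2 none).mon_w, ?_⟩
    have e1 : k = n := by omega
    subst e1
    rw [Equiv.Perm.mul_apply, allD_none]
    have e2 : (⟨k, by omega⟩ : Fin (k + 1)) = Fin.last k := rfl
    rw [e2, Equiv.swap_apply_right]
    exact hπ
  | succ d ih =>
    obtain ⟨g, π, hg, hπ⟩ := ih (k + 1) (by omega)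
    refine ⟨g * (allD h2 (some ⟨k, by omega⟩)).φ w, π * (allD h2 (some ⟨k, by omega⟩)).π,
      hg.mul (allD h2 (some ⟨k, by omega⟩)).mon_w, ?_⟩
    rw [Equiv.Perm.mul_apply, allD_some_E']
    have e1 : (⟨k, by omega⟩ : Fin (n + 1)) = (⟨k, by omega⟩ : Fin n).castSucc := rfl
    rw [e1, Equiv.swap_apply_left]
    exact hπ

include h2 in
theorem gen_top : (USub (rhoG (frO n F).Q) (ordO_inj (n := n)) ⊔ HSub (rhoG (frO n F).Q)) ⊔ NSub (rhoG (frO n F).Q) = ⊤ := by
  refine (frO n F).gen_sup ordO_inj (k₀ := 0) ?_ ?_ ?_ ?_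
  · intro r
    show (0 : ℕ) ≤ _
    omega
  · have e0 : ordO ((frO n F).E' 0) = 2 * (n + 1) := by
      show ordO (inr (inr 0)) = _
      simp
    rw [e0]
    rintro (⟨⟩ | (a | a))
    · simp
    · simp
      have := a.2
      omega
    · simp
  · intro b hb
    exact hΩ h2 _ _ _ _
  · rintro (⟨⟩ | (a | a)) ha
    · rw [frO_Q_u] at ha
      exact absurd ha one_ne_zero
    · exact trans_E h2 a a.2
    · have ha' := a.2
      exact trans_F h2 (n - a) a (by omega)

variable (n F) in
include h2 in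
/-- The Steinberg character of `PΩ_{2n+3}(q)`. -/
theorem main (p : ℕ) [Fact p.Prime] [CharP F p] :
    ∃ χ : Cfsg.POmega F (⇑(frO n F).Q) → ℂ, Cfsg.IsIrrCharacter (Cfsg.POmega F (⇑(frO n F).Q)) χ ∧
    ∀ Q : Sylow p (Cfsg.POmega F (⇑(frO n F).Q)), χ 1 = Nat.card Q ∧
      ∀ x : Cfsg.POmega F (⇑(frO n F).Q), x ∈ Q → x ≠ 1 → χ x = 0 :=
  Cov.main (hord := ordO_inj (n := n)) (allD h2) (allD_inj h2) (allD_τ h2) ord_surj (allD_cov h2) p (rhoG_inj _) (gen_top h2)

end Assembly

end Cfsg.Agent.Lib.StOm.Odd
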